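import Mathlib

set_option autoImplicit false

/-!
Alternating sums over chains in a finite family of elements of a lattice: they satisfy the
recursion of the Möbius function (Philip Hall).
-/

namespace Cfsg.Agent.Lib.Helper58.ChainMob

open Finset

variable {Λ : Type*} [Lattice Λ] [OrderBot Λ] [Fintype Λ]

open Classical in
/-- the members of `P` strictly between `⊥` and `w` -/
noncomputable def between (P : Λ → Prop) (w : Λ) : Finset Λ :=
  univ.filter (fun u => P u ∧ ⊥ < u ∧ u < w)

open Classical in
/-- chains of members of `P` strictly between `⊥` and `w` -/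
noncomputable def chains (P : Λ → Prop) (w : Λ) : Finset (Finset Λ) :=
  (between P w).powerset.filter (fun C => IsChain (· ≤ ·) (C : Set Λ))

/-- the alternating number of chains -/
noncomputable def chainSum (P : Λ → Prop) (w : Λ) : ℤ := ∑ C ∈ chains P w, (-1) ^ C.card

open Classical in
/-- the Möbius function built from chains -/
noncomputable def chainMob (P : Λ → Prop) (w : Λ) : ℤ := if w = ⊥ then 1 else - chainSum P w

variable (P : Λ → Prop)

theorem mem_between {w u : Λ} : u ∈ between P w ↔ P u ∧ ⊥ < u ∧ u < w := by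
  classical
  simp [between]

theorem mem_chains {w : Λ} {C : Finset Λ} :
    C ∈ chains P w ↔ (∀ u ∈ C, P u ∧ ⊥ < u ∧ u < w) ∧ IsChain (· ≤ ·) (C : Set Λ) := by
  classical
  unfold chains
  rw [mem_filter, mem_powerset]
  constructor
  · rintro ⟨h1, h2⟩
    exact ⟨fun u hu => (mem_between P).mp (h1 hu), h2⟩
  · rintro ⟨h1, h2⟩
    exact ⟨fun u hu => (mem_between P).mpr (h1 u hu), h2⟩

omit [Fintype Λ] in
theorem top_mem {C : Finset Λ} (hC : IsChain (· ≤ ·) (C : Set Λ)) (hne : C.Nonempty) :
    C.sup id ∈ C := by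
  classical
  obtain ⟨m, hm⟩ := C.exists_maximal hne
  have hle : ∀ u ∈ C, u ≤ m := by
    intro u hu
    rcases eq_or_ne u m with rfl | hne'
    · exact le_rfl
    · rcases hC (mem_coe.mpr hu) (mem_coe.mpr hm.prop) hne' with h | h
      · exact h
      · exact hm.le_of_ge hu h
  have : C.sup id = m := le_antisymm (Finset.sup_le hle) (Finset.le_sup (f := id) hm.prop)
  rw [this]
  exact hm.prop

theorem chainSum_rec (w : Λ) : chainSum P w = 1 - ∑ u ∈ between P w, chainSum P u := by
  classical
  unfold chainSum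
  have hempty : ∅ ∈ chains P w := by
    rw [mem_chains]
    exact ⟨fun u hu => absurd hu (Finset.notMem_empty u), by simp⟩
  rw [← Finset.add_sum_erase _ _ hempty]
  have key : ∑ C ∈ (chains P w).erase ∅, (-1 : ℤ) ^ C.card =
      ∑ p ∈ (between P w).sigma (fun u => chains P u), (-1 : ℤ) ^ (p.2.card + 1) := by
    refine Finset.sum_bij' (fun C _ => ⟨C.sup id, C.erase (C.sup id)⟩)
      (fun p _ => insert p.1 p.2) ?_ ?_ ?_ ?_ ?_
    · intro C hC
      obtain ⟨hne, hC'⟩ := mem_erase.mp hC
      obtain ⟨h1, h2⟩ := (mem_chains P).mp hC'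
      have hm := top_mem h2 (nonempty_iff_ne_empty.mpr hne)
      rw [mem_sigma]
      refine ⟨(mem_between P).mpr (h1 _ hm), (mem_chains P).mpr ⟨?_, ?_⟩⟩
      · intro u hu
        obtain ⟨hu1, hu2⟩ := mem_erase.mp hu
        exact ⟨(h1 u hu2).1, (h1 u hu2).2.1, lt_of_le_of_ne (Finset.le_sup (f := id) hu2) hu1⟩
      · exact h2.mono (coe_subset.mpr (erase_subset _ _))
    · rintro ⟨u, C'⟩ hp
      obtain ⟨hu, hC'⟩ := mem_sigma.mp hp
      obtain ⟨h1, h2⟩ := (mem_chains P).mp hC'
      have hu' := (mem_between P).mp hu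
      rw [mem_erase]
      refine ⟨insert_ne_empty _ _, (mem_chains P).mpr ⟨?_, ?_⟩⟩
      · intro v hv
        rcases mem_insert.mp hv with rfl | hv
        · exact hu'
        · exact ⟨(h1 v hv).1, (h1 v hv).2.1, (h1 v hv).2.2.trans hu'.2.2⟩
      · rw [coe_insert]
        apply h2.insert
        intro b hb _
        right
        exact (h1 b (mem_coe.mp hb)).2.2.le
    · intro C hC
      obtain ⟨hne, hC'⟩ := mem_erase.mp hC
      obtain ⟨h1, h2⟩ := (mem_chains P).mp hC'
      exact insert_erase (top_mem h2 (nonempty_iff_ne_empty.mpr hne))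
    · rintro ⟨u, C'⟩ hp
      obtain ⟨hu, hC'⟩ := mem_sigma.mp hp
      obtain ⟨h1, h2⟩ := (mem_chains P).mp hC'
      have hsup : (insert u C').sup id = u := by
        rw [sup_insert, id]
        exact sup_eq_left.mpr (Finset.sup_le fun v hv => (h1 v hv).2.2.le)
      have hnot : u ∉ C' := fun h => lt_irrefl _ (h1 u h).2.2
      simp only [hsup, erase_insert hnot]
    · intro C hC
      obtain ⟨hne, hC'⟩ := mem_erase.mp hC
      obtain ⟨h1, h2⟩ := (mem_chains P).mp hC'
      rw [card_erase_add_one (top_mem h2 (nonempty_iff_ne_empty.mpr hne))]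
  rw [key, Finset.sum_sigma]
  simp only [card_empty, pow_zero, pow_succ, mul_neg, mul_one, sum_neg_distrib]
  ring

theorem chainMob_bot : chainMob P (⊥ : Λ) = 1 := by
  classical
  unfold chainMob
  rw [if_pos rfl]

open Classical in
theorem chainMob_sum (hbot : P ⊥) (w : Λ) (hw : P w) (hw0 : w ≠ ⊥) :
    ∑ u ∈ univ.filter (fun u => P u ∧ u ≤ w), chainMob P u = 0 := by
  have hset : univ.filter (fun u => P u ∧ u ≤ w) = insert ⊥ (insert w (between P w)) := by
    ext u
    simp only [mem_filter, mem_univ, true_and, mem_insert, mem_between]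
    constructor
    · rintro ⟨hu, hle⟩
      by_cases h1 : u = ⊥
      · left; exact h1
      · by_cases h2 : u = w
        · right; left; exact h2
        · right; right; exact ⟨hu, bot_lt_iff_ne_bot.mpr h1, lt_of_le_of_ne hle h2⟩
    · rintro (rfl | rfl | ⟨hu, _, hlt⟩)
      · exact ⟨hbot, bot_le⟩
      · exact ⟨hw, le_rfl⟩
      · exact ⟨hu, hlt.le⟩
  rw [hset, sum_insert, sum_insert]
  · have h3 : ∑ u ∈ between P w, chainMob P u = - ∑ u ∈ between P w, chainSum P u := by
      rw [← sum_neg_distrib]
      apply sum_congr rfl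
      intro u hu
      have : u ≠ ⊥ := ((mem_between P).mp hu).2.1.ne'
      unfold chainMob
      rw [if_neg this]
    rw [h3, chainMob_bot]
    unfold chainMob
    rw [if_neg hw0, chainSum_rec P w]
    ring
  · rw [mem_between]
    exact fun h => lt_irrefl _ h.2.2
  · rw [mem_insert, mem_between]
    rintro (h | h)
    · exact hw0 h.symm
    · exact lt_irrefl _ h.2.1

end Cfsg.Agent.Lib.Helper58.ChainMob
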