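import Mathlib
import Cfsg.Agent.Lib.Helper58.BruhatGL

set_option autoImplicit false

/-!
The permutation character of `GL_n(F)` on the cosets of a standard parabolic subgroup counts the
fixed flags: chains of invariant subspaces with prescribed dimensions.
-/

namespace Cfsg.Agent.Lib.Helper58.FlagChar

open Finset

section General

/-- counting the fixed cosets through an orbit map -/
theorem card_fixedBy_eq {G : Type*} [Group G] (P : Subgroup G) {Ω : Type*} (φ : G → Ω)
    (hφ : ∀ g g', φ g = φ g' ↔ g⁻¹ * g' ∈ P) (x : G) (Y : Set Ω)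
    (hY : ∀ g, φ g ∈ Y ↔ g⁻¹ * x * g ∈ P) (hsurj : ∀ y ∈ Y, ∃ g, φ g = y) :
    Nat.card (MulAction.fixedBy (G ⧸ P) x) = Nat.card Y := by
  let ψ : G ⧸ P → Ω := Quotient.lift φ
    (fun a b hab => (hφ a b).mpr (QuotientGroup.leftRel_apply.mp hab))
  have hfix : ∀ g : G, (g : G ⧸ P) ∈ MulAction.fixedBy (G ⧸ P) x ↔ g⁻¹ * x * g ∈ P := by
    intro g
    rw [MulAction.mem_fixedBy]
    show ((x * g : G) : G ⧸ P) = (g : G ⧸ P) ↔ _
    rw [QuotientGroup.eq]
    constructor
    · intro h
      have := P.inv_mem h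
      simpa [mul_assoc] using this
    · intro h
      have := P.inv_mem h
      simpa [mul_assoc] using this
  refine Nat.card_congr (Equiv.ofBijective (fun c => (⟨ψ c.1, ?_⟩ : Y)) ⟨?_, ?_⟩)
  · obtain ⟨c, hc⟩ := c
    induction c using QuotientGroup.induction_on with
    | H g => exact (hY g).mpr ((hfix g).mp hc)
  · rintro ⟨c, hc⟩ ⟨c', hc'⟩ h
    have h' : ψ c = ψ c' := congrArg Subtype.val h
    induction c using QuotientGroup.induction_on with
    | H g =>
      induction c' using QuotientGroup.induction_on with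
      | H g' =>
        apply Subtype.ext
        exact QuotientGroup.eq.mpr ((hφ g g').mp h')
  · rintro ⟨y, hy⟩
    obtain ⟨g, rfl⟩ := hsurj y hy
    exact ⟨⟨(g : G ⧸ P), (hfix g).mpr ((hY g).mp hy)⟩, rfl⟩

variable {K V : Type*} [Field K] [AddCommGroup V] [Module K V] [FiniteDimensional K V]

open Module in
/-- two subspaces of the same dimension are related by a linear automorphism -/
theorem exists_equiv_map_eq (U₁ U₂ : Submodule K V) (h : finrank K U₁ = finrank K U₂) :
    ∃ e : V ≃ₗ[K] V, U₁.map (e : V →ₗ[K] V) = U₂ := by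
  obtain ⟨W₁, hW₁⟩ := Submodule.exists_isCompl U₁
  obtain ⟨W₂, hW₂⟩ := Submodule.exists_isCompl U₂
  have hW : finrank K W₁ = finrank K W₂ := by
    have h1 := Submodule.finrank_add_eq_of_isCompl hW₁
    have h2 := Submodule.finrank_add_eq_of_isCompl hW₂
    omega
  let eU : U₁ ≃ₗ[K] U₂ := LinearEquiv.ofFinrankEq U₁ U₂ h
  let eW : W₁ ≃ₗ[K] W₂ := LinearEquiv.ofFinrankEq W₁ W₂ hW
  let e : V ≃ₗ[K] V := (Submodule.prodEquivOfIsCompl U₁ W₁ hW₁).symm.trans
    ((eU.prodCongr eW).trans (Submodule.prodEquivOfIsCompl U₂ W₂ hW₂))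
  have he : ∀ x : U₁, e x = (eU x : V) := by
    intro x
    show (Submodule.prodEquivOfIsCompl U₂ W₂ hW₂)
      ((eU.prodCongr eW) ((Submodule.prodEquivOfIsCompl U₁ W₁ hW₁).symm x)) = _
    rw [Submodule.prodEquivOfIsCompl_symm_apply_left]
    simp [Submodule.coe_prodEquivOfIsCompl']
  refine ⟨e, ?_⟩
  apply le_antisymm
  · rintro _ ⟨x, hx, rfl⟩
    have := he ⟨x, hx⟩
    show e x ∈ U₂
    rw [this]
    exact (eU ⟨x, hx⟩).2
  · intro y hy
    refine ⟨(eU.symm ⟨y, hy⟩ : V), (eU.symm ⟨y, hy⟩).2, ?_⟩
    show e (eU.symm ⟨y, hy⟩ : V) = y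
    rw [he]
    simp

open Module in
/-- an automorphism fixing `A` pointwise and moving `B` to `B'` -/
theorem exists_equiv_fix (A B B' : Submodule K V) (hA : A ≤ B) (hA' : A ≤ B')
    (h : finrank K B = finrank K B') :
    ∃ e : V ≃ₗ[K] V, (∀ a ∈ A, e a = a) ∧ B.map (e : V →ₗ[K] V) = B' := by
  obtain ⟨R, hR⟩ := Submodule.exists_isCompl A
  have hB : A ⊔ B ⊓ R = B := by
    have := sup_inf_assoc_of_le R hA
    rw [hR.sup_eq_top, top_inf_eq] at this
    rw [inf_comm]
    exact this.symm
  have hB' : A ⊔ B' ⊓ R = B' := by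
    have := sup_inf_assoc_of_le R hA'
    rw [hR.sup_eq_top, top_inf_eq] at this
    rw [inf_comm]
    exact this.symm
  have hd : A ⊓ (B ⊓ R) = ⊥ :=
    le_bot_iff.mp (hR.inf_eq_bot ▸ inf_le_inf_left A inf_le_right)
  have hd' : A ⊓ (B' ⊓ R) = ⊥ :=
    le_bot_iff.mp (hR.inf_eq_bot ▸ inf_le_inf_left A inf_le_right)
  have hfin : finrank K ↥(B ⊓ R) = finrank K ↥(B' ⊓ R) := by
    have h1 := Submodule.finrank_sup_add_finrank_inf_eq A (B ⊓ R)
    have h2 := Submodule.finrank_sup_add_finrank_inf_eq A (B' ⊓ R)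
    rw [hB, hd, finrank_bot] at h1
    rw [hB', hd', finrank_bot] at h2
    omega
  obtain ⟨U₁, hU₁⟩ : ∃ U₁ : Submodule K R, U₁ = (B ⊓ R).comap R.subtype := ⟨_, rfl⟩
  obtain ⟨U₂, hU₂⟩ : ∃ U₂ : Submodule K R, U₂ = (B' ⊓ R).comap R.subtype := ⟨_, rfl⟩
  have hU : finrank K U₁ = finrank K U₂ := by
    rw [hU₁, hU₂, (Submodule.comapSubtypeEquivOfLe (inf_le_right : B ⊓ R ≤ R)).finrank_eq,
      (Submodule.comapSubtypeEquivOfLe (inf_le_right : B' ⊓ R ≤ R)).finrank_eq, hfin]
  obtain ⟨e', he'⟩ := exists_equiv_map_eq U₁ U₂ hU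
  let e : V ≃ₗ[K] V := (Submodule.prodEquivOfIsCompl A R hR).symm.trans
    (((LinearEquiv.refl K A).prodCongr e').trans (Submodule.prodEquivOfIsCompl A R hR))
  have heA : ∀ a ∈ A, e a = a := by
    intro a ha
    show (Submodule.prodEquivOfIsCompl A R hR)
      (((LinearEquiv.refl K A).prodCongr e') ((Submodule.prodEquivOfIsCompl A R hR).symm a)) = a
    rw [Submodule.prodEquivOfIsCompl_symm_apply_left A R hR ⟨a, ha⟩]
    simp [Submodule.coe_prodEquivOfIsCompl']
  have heR : ∀ r : R, e (r : V) = (e' r : V) := by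
    intro r
    show (Submodule.prodEquivOfIsCompl A R hR)
      (((LinearEquiv.refl K A).prodCongr e') ((Submodule.prodEquivOfIsCompl A R hR).symm r)) = _
    rw [Submodule.prodEquivOfIsCompl_symm_apply_right]
    simp [Submodule.coe_prodEquivOfIsCompl']
  refine ⟨e, heA, ?_⟩
  rw [← hB, ← hB', Submodule.map_sup]
  congr 1
  · apply le_antisymm
    · rintro _ ⟨a, ha, rfl⟩
      show e a ∈ A
      rw [heA a ha]
      exact ha
    · intro a ha
      exact ⟨a, ha, heA a ha⟩
  · apply le_antisymm
    · rintro _ ⟨c, hc, rfl⟩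
      have h1 : (⟨c, hc.2⟩ : R) ∈ U₁ := by
        rw [hU₁]
        exact hc
      have h2 : e' ⟨c, hc.2⟩ ∈ U₂ := by
        rw [← he']
        exact Submodule.mem_map_of_mem h1
      have h3 := heR ⟨c, hc.2⟩
      show e c ∈ B' ⊓ R
      rw [h3]
      rw [hU₂] at h2
      exact h2
    · intro c hc
      have h1 : (⟨c, hc.2⟩ : R) ∈ U₂ := by
        rw [hU₂]
        exact hc
      rw [← he'] at h1
      obtain ⟨r, hr, hre⟩ := h1
      rw [hU₁] at hr
      refine ⟨(r : V), hr, ?_⟩
      show e (r : V) = c
      rw [heR r]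
      exact congrArg Subtype.val hre

end General

variable {F : Type*} [Field F] {n : ℕ}

/-- the action of `GL_n` on subspaces -/
def act (g : GL (Fin n) F) (U : Submodule F (Fin n → F)) : Submodule F (Fin n → F) :=
  U.map (Matrix.mulVecLin (g : Matrix (Fin n) (Fin n) F))

theorem act_one (U : Submodule F (Fin n → F)) : act (1 : GL (Fin n) F) U = U := by
  unfold act
  rw [Units.val_one, Matrix.mulVecLin_one, Submodule.map_id]

theorem act_mul (g h : GL (Fin n) F) (U : Submodule F (Fin n → F)) :
    act (g * h) U = act g (act h U) := by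
  unfold act
  rw [Units.val_mul, Matrix.mulVecLin_mul, Submodule.map_comp]

theorem act_mono (g : GL (Fin n) F) {U U' : Submodule F (Fin n → F)} (h : U ≤ U') :
    act g U ≤ act g U' := Submodule.map_mono h

theorem act_inv_act (g : GL (Fin n) F) (U : Submodule F (Fin n → F)) :
    act g⁻¹ (act g U) = U := by
  rw [← act_mul, inv_mul_cancel, act_one]

theorem act_le_iff (g : GL (Fin n) F) {U U' : Submodule F (Fin n → F)} :
    act g U ≤ act g U' ↔ U ≤ U' := by
  refine ⟨fun h => ?_, act_mono g⟩
  have := act_mono g⁻¹ h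
  rwa [act_inv_act, act_inv_act] at this

theorem mulVecLin_injective (g : GL (Fin n) F) :
    Function.Injective (Matrix.mulVecLin (g : Matrix (Fin n) (Fin n) F)) := by
  intro v w h
  have := congrArg (Matrix.mulVecLin ((g⁻¹ : GL (Fin n) F) : Matrix (Fin n) (Fin n) F)) h
  simp only [Matrix.mulVecLin_apply, Matrix.mulVec_mulVec] at this
  rwa [← Units.val_mul, inv_mul_cancel, Units.val_one, Matrix.one_mulVec, Matrix.one_mulVec]
    at this

theorem finrank_act (g : GL (Fin n) F) (U : Submodule F (Fin n → F)) :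
    Module.finrank F (act g U) = Module.finrank F U :=
  (Submodule.equivMapOfInjective _ (mulVecLin_injective g) U).finrank_eq.symm

/-- the standard coordinate subspace of dimension `d` -/
def stdSub (F : Type*) [Field F] (n d : ℕ) : Submodule F (Fin n → F) where
  carrier := {v | ∀ i : Fin n, d ≤ i.val → v i = 0}
  add_mem' := fun {a b} ha hb i hi => by
    rw [Pi.add_apply, ha i hi, hb i hi, add_zero]
  zero_mem' := fun i _ => rfl
  smul_mem' := fun c v hv i hi => by
    rw [Pi.smul_apply, hv i hi, smul_zero]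

theorem mem_stdSub {d : ℕ} {v : Fin n → F} :
    v ∈ stdSub F n d ↔ ∀ i : Fin n, d ≤ i.val → v i = 0 := Iff.rfl

theorem stdSub_mono {d d' : ℕ} (h : d ≤ d') : stdSub F n d ≤ stdSub F n d' :=
  fun _ hv i hi => hv i (h.trans hi)

theorem finrank_stdSub {d : ℕ} (hd : d ≤ n) : Module.finrank F (stdSub F n d) = d := by
  let e : stdSub F n d ≃ₗ[F] (Fin d → F) :=
    { toFun := fun v k => (v : Fin n → F) ⟨k.val, lt_of_lt_of_le k.2 hd⟩
      map_add' := fun v w => rfl
      map_smul' := fun c v => rfl
      invFun := fun w => ⟨fun i => if h : i.val < d then w ⟨i.val, h⟩ else 0, fun i hi => by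
        show (if h : i.val < d then w ⟨i.val, h⟩ else 0) = 0
        rw [dif_neg (not_lt.mpr hi)]⟩
      left_inv := fun v => by
        apply Subtype.ext
        funext i
        by_cases h : i.val < d
        · simp [h]
        · simp only [h, dif_neg, not_false_iff]
          exact (v.2 i (not_lt.mp h)).symm
      right_inv := fun w => by
        funext k
        simp [k.2] }
  rw [e.finrank_eq, Module.finrank_fin_fun]

theorem act_stdSub_le_iff (g : GL (Fin n) F) (d : ℕ) :
    act g (stdSub F n d) ≤ stdSub F n d ↔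
      ∀ i j : Fin n, j.val < d → d ≤ i.val → (g : Matrix (Fin n) (Fin n) F) i j = 0 := by
  classical
  constructor
  · intro h i j hj hi
    have hmem : (Pi.single j 1 : Fin n → F) ∈ stdSub F n d := by
      intro k hk
      rw [Pi.single_apply, if_neg]
      rintro rfl
      omega
    have := h (Submodule.mem_map_of_mem hmem) i hi
    rw [Matrix.mulVecLin_apply, Matrix.mulVec_single_one] at this
    exact this
  · rintro h _ ⟨v, hv, rfl⟩ i hi
    rw [Matrix.mulVecLin_apply]
    show ∑ j, (g : Matrix (Fin n) (Fin n) F) i j * v j = 0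
    apply Finset.sum_eq_zero
    intro j _
    by_cases hj : j.val < d
    · rw [h i j hj hi, zero_mul]
    · rw [hv j (not_lt.mp hj), mul_zero]

/-- partial sums of a composition -/
def psum (μ : Fin n → ℕ) (k : Fin n) : ℕ := ∑ j ∈ univ.filter (fun j : Fin n => j ≤ k), μ j

theorem compLabel_lt_iff (μ : Fin n → ℕ) (i j : Fin n) :
    Cfsg.compLabel μ j < Cfsg.compLabel μ i ↔
      ∃ k : Fin n, j.val < psum μ k ∧ psum μ k ≤ i.val := by
  change (univ.filter (fun k : Fin n => psum μ k ≤ j.val)).card <
    (univ.filter (fun k : Fin n => psum μ k ≤ i.val)).card ↔ _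
  constructor
  · intro h
    by_contra hcon
    push Not at hcon
    have hsub : univ.filter (fun k : Fin n => psum μ k ≤ i.val) ⊆
        univ.filter (fun k : Fin n => psum μ k ≤ j.val) := by
      intro k hk
      simp only [mem_filter, mem_univ, true_and] at hk ⊢
      by_contra h2
      exact absurd hk (not_le.mpr (hcon k (not_le.mp h2)))
    exact absurd (card_le_card hsub) (not_le.mpr h)
  · rintro ⟨k, hk1, hk2⟩
    apply card_lt_card
    rw [Finset.ssubset_iff_of_subset]
    · refine ⟨k, ?_, ?_⟩
      · simp only [mem_filter, mem_univ, true_and]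
        exact hk2
      · simp only [mem_filter, mem_univ, true_and, not_le]
        exact hk1
    · intro k' hk'
      simp only [mem_filter, mem_univ, true_and] at hk' ⊢
      omega

/-- the dimensions of the proper nonzero members of the standard flag of a composition -/
def dset (μ : Fin n → ℕ) : Finset ℕ := (univ.image (psum μ)).filter (fun d => 1 ≤ d ∧ d < n)

theorem mem_par_le (μ : Fin n → ℕ) (g : GL (Fin n) F) :
    g ∈ Cfsg.parabolicGL n F μ ↔ ∀ d ∈ dset μ, act g (stdSub F n d) ≤ stdSub F n d := by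
  rw [show g ∈ Cfsg.parabolicGL n F μ ↔
    (g : Matrix (Fin n) (Fin n) F).BlockTriangular (Cfsg.compLabel μ) from Iff.rfl]
  constructor
  · intro h d hd
    obtain ⟨hd1, _⟩ := mem_filter.mp hd
    obtain ⟨k, _, rfl⟩ := mem_image.mp hd1
    rw [act_stdSub_le_iff]
    intro i j hj hi
    exact h ((compLabel_lt_iff μ i j).mpr ⟨k, hj, hi⟩)
  · intro h i j hij
    obtain ⟨k, hk1, hk2⟩ := (compLabel_lt_iff μ i j).mp hij
    have hd : psum μ k ∈ dset μ := by
      unfold dset
      rw [mem_filter]
      refine ⟨mem_image_of_mem _ (mem_univ k), by omega, ?_⟩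
      have := i.2
      omega
    exact (act_stdSub_le_iff g _).mp (h _ hd) i j hk1 hk2

theorem dset_lt (μ : Fin n → ℕ) {d : ℕ} (hd : d ∈ dset μ) : d < n := (mem_filter.mp hd).2.2

theorem mem_par_eq (μ : Fin n → ℕ) (g : GL (Fin n) F) :
    g ∈ Cfsg.parabolicGL n F μ ↔ ∀ d ∈ dset μ, act g (stdSub F n d) = stdSub F n d := by
  rw [mem_par_le]
  constructor
  · intro h d hd
    exact Submodule.eq_of_le_of_finrank_eq (h d hd) (finrank_act g _)
  · intro h d hd
    exact (h d hd).le

/-- `GL_n` is transitive on flags -/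
theorem exists_equiv_flag (C : Finset (Submodule F (Fin n → F)))
    (hC : IsChain (· ≤ ·) (C : Set (Submodule F (Fin n → F)))) :
    ∃ e : (Fin n → F) ≃ₗ[F] (Fin n → F), ∀ U ∈ C,
      (stdSub F n (Module.finrank F U)).map (e : (Fin n → F) →ₗ[F] (Fin n → F)) = U := by
  classical
  induction hcard : C.card generalizing C with
  | zero =>
    rw [Finset.card_eq_zero] at hcard
    subst hcard
    exact ⟨LinearEquiv.refl F _, fun U hU => absurd hU (Finset.notMem_empty U)⟩
  | succ m ih =>
    have hne : C.Nonempty := by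
      rw [← Finset.card_pos]
      omega
    obtain ⟨W, hW, hmax⟩ := Finset.exists_max_image C (fun U => Module.finrank F U) hne
    obtain ⟨e', he'⟩ := ih (C.erase W) (hC.mono (coe_subset.mpr (erase_subset _ _)))
      (by rw [card_erase_of_mem hW, hcard]; rfl)
    have hle : ∀ U ∈ C, U ≤ W := by
      intro U hU
      rcases eq_or_ne U W with rfl | hne'
      · exact le_rfl
      · rcases hC (mem_coe.mpr hU) (mem_coe.mpr hW) hne' with h | h
        · exact h
        · exact (Submodule.eq_of_le_of_finrank_le h (hmax U hU)).symm ▸ le_rfl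
    obtain ⟨k, hk⟩ : ∃ k, k = Module.finrank F W := ⟨_, rfl⟩
    have hkn : k ≤ n := by
      have := Submodule.finrank_le W
      rw [Module.finrank_fin_fun] at this
      omega
    obtain ⟨h, hhA, hhB⟩ := exists_equiv_fix ((C.erase W).sup id)
      ((stdSub F n k).map (e' : (Fin n → F) →ₗ[F] (Fin n → F))) W
      (by
        apply Finset.sup_le
        intro U hU
        rw [id, ← he' U hU]
        exact Submodule.map_mono (stdSub_mono (hk ▸ hmax U (mem_of_mem_erase hU))))
      (Finset.sup_le (fun U hU => hle U (mem_of_mem_erase hU)))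
      (by
        rw [← (Submodule.equivMapOfInjective _ e'.injective (stdSub F n k)).finrank_eq,
          finrank_stdSub hkn, hk])
    refine ⟨e'.trans h, ?_⟩
    intro U hU
    rcases eq_or_ne U W with rfl | hne'
    · rw [LinearEquiv.coe_trans, Submodule.map_comp, ← hk]
      exact hhB
    · have hU' : U ∈ C.erase W := mem_erase.mpr ⟨hne', hU⟩
      rw [LinearEquiv.coe_trans, Submodule.map_comp, he' U hU']
      apply le_antisymm
      · rintro _ ⟨u, hu, rfl⟩
        show h u ∈ U
        rw [hhA u (Finset.le_sup (f := id) hU' hu)]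
        exact hu
      · intro u hu
        exact ⟨u, hu, hhA u (Finset.le_sup (f := id) hU' hu)⟩

theorem exists_gl_of_equiv (e : (Fin n → F) ≃ₗ[F] (Fin n → F)) :
    ∃ g : GL (Fin n) F, Matrix.mulVecLin (g : Matrix (Fin n) (Fin n) F) =
      (e : (Fin n → F) →ₗ[F] (Fin n → F)) := by
  classical
  refine ⟨Matrix.GeneralLinearGroup.mkOfDetNeZero
    (LinearMap.toMatrix' (e : (Fin n → F) →ₗ[F] (Fin n → F))) ?_, ?_⟩
  · rw [LinearMap.det_toMatrix']
    exact (LinearEquiv.isUnit_det' e).ne_zero
  · show Matrix.mulVecLin (LinearMap.toMatrix' (e : (Fin n → F) →ₗ[F] (Fin n → F))) = _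
    rw [← Matrix.toLin'_apply', Matrix.toLin'_toMatrix']

open Classical in
/-- the flags fixed by `x`: chains of `x`-stable subspaces with dimension set `S` -/
def flagSet (x : GL (Fin n) F) (S : Finset ℕ) : Set (Finset (Submodule F (Fin n → F))) :=
  {C | IsChain (· ≤ ·) (C : Set (Submodule F (Fin n → F))) ∧ (∀ U ∈ C, act x U ≤ U) ∧
    C.image (fun U : Submodule F (Fin n → F) => Module.finrank F U) = S}

/-- the permutation character on the cosets of a parabolic subgroup counts the fixed flags -/
theorem fpc_parabolic (μ : Fin n → ℕ) (x : GL (Fin n) F) :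
    Cfsg.fixedPointCharacter (Cfsg.parabolicGL n F μ) x = (Nat.card (flagSet x (dset μ)) : ℂ) := by
  classical
  unfold Cfsg.fixedPointCharacter
  congr 1
  have hfin : ∀ (g : GL (Fin n) F), ∀ d ∈ dset μ,
      Module.finrank F (act g (stdSub F n d)) = d := fun g d hd => by
    rw [finrank_act, finrank_stdSub (dset_lt μ hd).le]
  apply card_fixedBy_eq (Cfsg.parabolicGL n F μ)
    (fun g => (dset μ).image (fun d => act g (stdSub F n d)))
  · intro g g'
    constructor
    · intro h
      rw [mem_par_eq]
      intro d hd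
      have h1 : act g' (stdSub F n d) ∈ (dset μ).image (fun d => act g (stdSub F n d)) := by
        rw [h]
        exact mem_image_of_mem _ hd
      obtain ⟨d', hd', h2⟩ := mem_image.mp h1
      have h3 : d' = d := by
        have h5 : Module.finrank F (act g (stdSub F n d')) =
            Module.finrank F (act g' (stdSub F n d)) := by rw [h2]
        rw [hfin g d' hd', hfin g' d hd] at h5
        exact h5
      rw [h3] at h2
      rw [act_mul, ← h2, act_inv_act]
    · intro h
      rw [mem_par_eq] at h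
      apply image_congr
      intro d hd
      have h1 := h d (mem_coe.mp hd)
      show act g (stdSub F n d) = act g' (stdSub F n d)
      have h2 : g' = g * (g⁻¹ * g') := by group
      rw [h2, act_mul, h1]
  · intro g
    rw [mem_par_le]
    constructor
    · rintro ⟨_, h2, _⟩ d hd
      have h3 := h2 _ (mem_image_of_mem (fun d => act g (stdSub F n d)) hd)
      have h4 := act_mono g⁻¹ h3
      rw [act_inv_act] at h4
      rw [mul_assoc, act_mul, act_mul]
      exact h4
    · intro h
      refine ⟨?_, ?_, ?_⟩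
      · intro U hU U' hU' _
        obtain ⟨d, _, rfl⟩ := mem_image.mp (mem_coe.mp hU)
        obtain ⟨d', _, rfl⟩ := mem_image.mp (mem_coe.mp hU')
        rcases le_total d d' with h1 | h1
        · left
          exact act_mono g (stdSub_mono h1)
        · right
          exact act_mono g (stdSub_mono h1)
      · intro U hU
        obtain ⟨d, hd, rfl⟩ := mem_image.mp hU
        have h1 := h d hd
        rw [mul_assoc, act_mul, act_mul] at h1
        have h2 := act_mono g h1
        rw [← act_mul g g⁻¹, mul_inv_cancel, act_one] at h2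
        exact h2
      · rw [image_image]
        conv_rhs => rw [← image_id (s := dset μ)]
        apply image_congr
        intro d hd
        exact hfin g d (mem_coe.mp hd)
  · rintro C ⟨hC1, _, hC3⟩
    obtain ⟨e, he⟩ := exists_equiv_flag C hC1
    obtain ⟨g, hg⟩ := exists_gl_of_equiv e
    refine ⟨g, ?_⟩
    show (dset μ).image (fun d => act g (stdSub F n d)) = C
    rw [← hC3, image_image]
    conv_rhs => rw [← image_id (s := C)]
    apply image_congr
    intro U hU
    show act g (stdSub F n (Module.finrank F U)) = U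
    unfold act
    rw [hg]
    exact he U (mem_coe.mp hU)

end Cfsg.Agent.Lib.Helper58.FlagChar
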