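import Mathlib

set_option autoImplicit false
set_option linter.style.haveILetI false

namespace Cfsg.Agent.Lib.Helper58

open scoped Pointwise

/-- Conjugation action of a subgroup `F ≤ N_G(V)` on `V`. -/
def conjOn {G : Type*} [Group G] (V F : Subgroup G)
    (hFV : F ≤ Subgroup.normalizer (V : Set G)) : F →* MulAut V where
  toFun f :=
    { toFun := fun v => ⟨(f : G) * v * (f : G)⁻¹, ((hFV f.2) v).mp v.2⟩
      invFun := fun v => ⟨(f : G)⁻¹ * v * (f : G), by
        have := ((hFV (F.inv_mem f.2)) v).mp v.2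
        simpa using this⟩
      left_inv := fun v => Subtype.ext (by simp [mul_assoc])
      right_inv := fun v => Subtype.ext (by simp [mul_assoc])
      map_mul' := fun v w => Subtype.ext (by simp [mul_assoc]) }
  map_one' := by ext v; simp
  map_mul' := fun f g => by ext v; simp [mul_assoc]

theorem conjOn_apply {G : Type*} [Group G] (V F : Subgroup G)
    (hFV : F ≤ Subgroup.normalizer (V : Set G)) (f : F) (v : V) :
    ((conjOn V F hFV f v : V) : G) = (f : G) * v * (f : G)⁻¹ := rfl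

/-- Averaging over a Frobenius group `F = N ⋊ H` acting on an abelian group `V`: if neither `N`
nor `H` has a nontrivial fixed point then `V` has exponent dividing `|N|`. -/
theorem frob_avg {F V : Type*} [Group F] [Fintype F] [CommGroup V] (c : F →* MulAut V)
    (N H : Subgroup F) [N.Normal] (hc : N.IsComplement' H)
    (hfrob : ∀ g : F, g ∉ H → H ⊓ (MulAut.conj g • H) = ⊥)
    (hker : ∀ f : F, f ∉ N → ∃ g : F, f ∈ MulAut.conj g • H)
    (hN : ∀ v : V, (∀ n ∈ N, c n v = v) → v = 1)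
    (hH : ∀ v : V, (∀ h ∈ H, c h v = v) → v = 1) (v : V) :
    v ^ Nat.card N = 1 := by
  classical
  have hTH : ∀ w : V, ∏ h : H, c (h : F) w = 1 := by
    intro w
    apply hH
    intro h₀ hh₀
    rw [map_prod]
    exact Fintype.prod_equiv (Equiv.mulLeft (⟨h₀, hh₀⟩ : H)) _ _ (fun h => by
      rw [Equiv.coe_mulLeft, Subgroup.coe_mul, map_mul, MulAut.mul_apply])
  have hTN : ∀ w : V, ∏ n : N, c (n : F) w = 1 := by
    intro w
    apply hN
    intro n₀ hn₀
    rw [map_prod]
    exact Fintype.prod_equiv (Equiv.mulLeft (⟨n₀, hn₀⟩ : N)) _ _ (fun n => by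
      rw [Equiv.coe_mulLeft, Subgroup.coe_mul, map_mul, MulAut.mul_apply])
  have hdisj : ∀ x : F, x ∈ N → x ∈ H → x = 1 := by
    intro x hxN hxH
    have : x ∈ N ⊓ H := ⟨hxN, hxH⟩
    rw [hc.disjoint.eq_bot] at this
    exact Subgroup.mem_bot.mp this
  have hTF : ∏ f : F, c f v = 1 := by
    have hbij : Function.Bijective (fun x : N × H => (x.1 : F) * x.2) := hc
    rw [← Fintype.prod_bijective _ hbij (fun x : N × H => c ((x.1 : F) * x.2) v)
      (fun f => c f v) (fun x => rfl)]
    rw [Fintype.prod_prod_type]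
    apply Finset.prod_eq_one
    intro n _
    have : ∏ h : H, c ((n : F) * h) v = c n (∏ h : H, c (h : F) v) := by
      rw [map_prod]
      exact Finset.prod_congr rfl (fun h _ => by rw [map_mul, MulAut.mul_apply])
    rw [this, hTH, map_one]
  have hout : ∏ f : {f : F // ¬ f ∈ N}, c (f : F) v = 1 := by
    have := Fintype.prod_subtype_mul_prod_subtype (fun f : F => f ∈ N) (fun f => c f v)
    rw [hTF] at this
    have h1 : ∏ i : {x : F // x ∈ N}, c (i : F) v = 1 := hTN v
    rw [h1, one_mul] at this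
    exact this
  have hmemout : ∀ x : N × {h : H // h ≠ 1}, ¬ ((x.1 : F) * (x.2.1 : F) * (x.1 : F)⁻¹ ∈ N) := by
    rintro ⟨n, h, hh⟩ hmem
    apply hh
    have h2 : (h : F) ∈ N := by
      have := N.mul_mem (N.mul_mem (N.inv_mem n.2) hmem) n.2
      simpa [mul_assoc] using this
    exact Subtype.ext (hdisj _ h2 h.2)
  have he : Function.Bijective (fun x : N × {h : H // h ≠ 1} =>
      (⟨(x.1 : F) * (x.2.1 : F) * (x.1 : F)⁻¹, hmemout x⟩ : {f : F // ¬ f ∈ N})) := by
    constructor
    · rintro ⟨n, h, hh⟩ ⟨n', h', hh'⟩ hx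
      have hx' : (n : F) * (h : F) * (n : F)⁻¹ = (n' : F) * (h' : F) * (n' : F)⁻¹ :=
        congrArg Subtype.val hx
      have hg : ((n' : F)⁻¹ * n) * h * ((n' : F)⁻¹ * n)⁻¹ = h' := by
        have : ((n' : F)⁻¹ * n) * h * ((n' : F)⁻¹ * n)⁻¹
            = (n' : F)⁻¹ * ((n : F) * h * (n : F)⁻¹) * n' := by group
        rw [this, hx']
        group
      have hgH : (n' : F)⁻¹ * n ∈ H := by
        by_contra hcon
        have h1 := hfrob _ hcon
        have hmem : (h' : F) ∈ MulAut.conj ((n' : F)⁻¹ * n) • H := by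
          rw [Subgroup.mem_pointwise_smul_iff_inv_smul_mem]
          have : (MulAut.conj ((n' : F)⁻¹ * n))⁻¹ • (h' : F) = h := by
            rw [← hg, MulAut.smul_def, ← map_inv, MulAut.conj_apply]
            group
          rw [this]
          exact h.2
        have h2 : (h' : F) ∈ H ⊓ (MulAut.conj ((n' : F)⁻¹ * n) • H) :=
          Subgroup.mem_inf.mpr ⟨h'.2, hmem⟩
        rw [h1] at h2
        exact hh' (Subtype.ext (Subgroup.mem_bot.mp h2))
      have hgN : (n' : F)⁻¹ * n ∈ N := N.mul_mem (N.inv_mem n'.2) n.2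
      have hg1 : (n' : F)⁻¹ * n = 1 := hdisj _ hgN hgH
      have hnn : n = n' := Subtype.ext (inv_mul_eq_one.mp hg1).symm
      subst hnn
      have hh2 : (h : F) = h' := by
        exact mul_left_cancel (mul_right_cancel hx')
      have hh3 : h = h' := Subtype.ext hh2
      subst hh3
      rfl
    · rintro ⟨f, hf⟩
      obtain ⟨g, hg⟩ := hker f hf
      rw [Subgroup.mem_pointwise_smul_iff_inv_smul_mem] at hg
      obtain ⟨⟨n, h₁⟩, hnh⟩ := hc.2 g
      have hnh' : (n : F) * h₁ = g := hnh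
      set h₀ : F := (MulAut.conj g)⁻¹ • f with hh₀
      have hf_eq : f = g * h₀ * g⁻¹ := by
        rw [hh₀, MulAut.smul_def, ← map_inv, MulAut.conj_apply]
        group
      have hh2 : (h₁ : F) * h₀ * (h₁ : F)⁻¹ ∈ H := H.mul_mem (H.mul_mem h₁.2 hg) (H.inv_mem h₁.2)
      have hf2 : f = (n : F) * ((h₁ : F) * h₀ * (h₁ : F)⁻¹) * (n : F)⁻¹ := by
        rw [hf_eq, ← hnh']
        group
      have hne : (⟨(h₁ : F) * h₀ * (h₁ : F)⁻¹, hh2⟩ : H) ≠ 1 := by
        intro h1
        have h1' : (h₁ : F) * h₀ * (h₁ : F)⁻¹ = 1 := congrArg Subtype.val h1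
        apply hf
        rw [hf2, h1', mul_one, mul_inv_cancel]
        exact N.one_mem
      exact ⟨⟨n, ⟨⟨(h₁ : F) * h₀ * (h₁ : F)⁻¹, hh2⟩, hne⟩⟩, Subtype.ext hf2.symm⟩
  have h2 : ∏ x : N × {h : H // h ≠ 1}, c ((x.1 : F) * (x.2.1 : F) * (x.1 : F)⁻¹) v = 1 := by
    rw [Fintype.prod_bijective _ he _ (fun f => c (f : F) v) (fun x => rfl)]
    exact hout
  rw [Fintype.prod_prod_type] at h2
  have h3 : ∀ n : N, ∏ h : {h : H // h ≠ 1}, c ((n : F) * (h.1 : F) * (n : F)⁻¹) v = v⁻¹ := by
    intro n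
    have key := Fintype.prod_subtype_mul_prod_subtype (fun h : H => h ≠ 1)
      (fun h => c ((n : F) * (h : F) * (n : F)⁻¹) v)
    have hall : ∏ h : H, c ((n : F) * (h : F) * (n : F)⁻¹) v = 1 := by
      have : ∀ h : H, c ((n : F) * (h : F) * (n : F)⁻¹) v
          = c n (c (h : F) (c (n : F)⁻¹ v)) := fun h => by
        rw [map_mul, map_mul, MulAut.mul_apply, MulAut.mul_apply]
      rw [Finset.prod_congr rfl (fun h _ => this h), ← map_prod, hTH, map_one]
    have hone : ∏ i : {h : H // ¬ h ≠ 1}, c ((n : F) * (i.1 : F) * (n : F)⁻¹) v = v := by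
      rw [Fintype.prod_eq_single (⟨1, by simp⟩ : {h : H // ¬ h ≠ 1})]
      · rw [Subgroup.coe_one, mul_one, mul_inv_cancel, map_one, MulAut.one_apply]
      · rintro ⟨x, hx⟩ hne
        exfalso
        apply hne
        apply Subtype.ext
        show x = 1
        by_contra h'
        exact hx h'
    rw [hall, hone] at key
    exact eq_inv_of_mul_eq_one_left key
  rw [Finset.prod_congr rfl (fun n _ => h3 n), Finset.prod_const, Finset.card_univ, inv_pow,
    inv_eq_one] at h2
  rw [Nat.card_eq_fintype_card]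
  exact h2

end Cfsg.Agent.Lib.Helper58
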