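import Mathlib

set_option autoImplicit false

/-!
A determinant identity evaluating the alternating sum over the permutations `κ` of `Fin (m+1)`
with `κ i ≤ i + 1` of an arbitrary function of the set `{i + 1 | κ i ≤ i}`.
-/

namespace Cfsg.Agent.Lib.Helper58.HessDet

open Finset MvPolynomial

/-- the Hessenberg matrix with entries `1` on the superdiagonal and `X (i+1)` in row `i`
on and below the diagonal -/
noncomputable def hA (n : ℕ) : Matrix (Fin n) (Fin n) (MvPolynomial ℕ ℤ) :=
  fun i j => if j.val = i.val + 1 then 1 else if j.val ≤ i.val then X (i.val + 1) else 0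

/-- the diagonal entries of the bidiagonal factor -/
noncomputable def hD (n : ℕ) (i : Fin n) : MvPolynomial ℕ ℤ :=
  X (i.val + 1) - (if i.val + 1 < n then 1 else 0)

/-- the upper bidiagonal factor -/
noncomputable def hB (n : ℕ) : Matrix (Fin n) (Fin n) (MvPolynomial ℕ ℤ) :=
  fun i j => (if j = i then hD n i else 0) + (if j.val = i.val + 1 then 1 else 0)

/-- the lower triangular all-ones factor -/
noncomputable def hU (n : ℕ) : Matrix (Fin n) (Fin n) (MvPolynomial ℕ ℤ) :=
  fun i j => if j.val ≤ i.val then 1 else 0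

theorem hA_eq (n : ℕ) : hA n = hB n * hU n := by
  ext i j
  rw [Matrix.mul_apply]
  have h1 : ∀ k : Fin n, hB n i k * hU n k j =
      (if k = i then hD n i * hU n i j else 0) + (if k.val = i.val + 1 then hU n k j else 0) := by
    intro k
    unfold hB
    rw [add_mul]
    congr 1
    · by_cases h : k = i
      · rw [if_pos h, if_pos h, h]
      · rw [if_neg h, if_neg h, zero_mul]
    · by_cases h : k.val = i.val + 1
      · rw [if_pos h, if_pos h, one_mul]
      · rw [if_neg h, if_neg h, zero_mul]
  have h2 : ∑ k : Fin n, (if k.val = i.val + 1 then hU n k j else 0) =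
      if h : i.val + 1 < n then hU n ⟨i.val + 1, h⟩ j else 0 := by
    by_cases h : i.val + 1 < n
    · rw [dif_pos h, Finset.sum_eq_single ⟨i.val + 1, h⟩]
      · rw [if_pos rfl]
      · intro k _ hk
        rw [if_neg]
        intro hk'
        exact hk (Fin.ext hk')
      · intro h'
        exact absurd (mem_univ _) h'
    · rw [dif_neg h]
      apply Finset.sum_eq_zero
      intro k _
      rw [if_neg]
      have := k.2
      omega
  rw [Finset.sum_congr rfl (fun k _ => h1 k), Finset.sum_add_distrib, h2]
  simp only [Finset.sum_ite_eq', Finset.mem_univ, if_true]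
  unfold hA hD hU
  by_cases h : i.val + 1 < n
  · rw [dif_pos h]
    simp only [if_pos h]
    by_cases hj1 : j.val = i.val + 1
    · have h3 : ¬ j.val ≤ i.val := by omega
      have h4 : j.val ≤ i.val + 1 := by omega
      rw [if_pos hj1, if_neg h3, if_pos h4, mul_zero, zero_add]
    · by_cases hj2 : j.val ≤ i.val
      · have h4 : j.val ≤ i.val + 1 := by omega
        rw [if_neg hj1, if_pos hj2, if_pos hj2, if_pos h4, mul_one, sub_add_cancel]
      · have h4 : ¬ j.val ≤ i.val + 1 := by omega
        rw [if_neg hj1, if_neg hj2, if_neg hj2, if_neg h4, mul_zero, zero_add]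
  · rw [dif_neg h]
    simp only [if_neg h]
    have hj1 : j.val ≠ i.val + 1 := by have := j.2; omega
    have hj2 : j.val ≤ i.val := by have := j.2; omega
    rw [if_neg hj1, if_pos hj2, if_pos hj2, mul_one, sub_zero, add_zero]

theorem det_hB (n : ℕ) : (hB n).det = ∏ i : Fin n, hD n i := by
  rw [Matrix.det_of_isUpperTriangular]
  · apply Finset.prod_congr rfl
    intro i _
    unfold hB
    rw [if_pos rfl, if_neg (by omega), add_zero]
  · intro i j hij
    have hij' : j < i := hij
    unfold hB
    have h1 : j ≠ i := ne_of_lt hij'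
    have h2 : j.val ≠ i.val + 1 := by
      have : j.val < i.val := hij'
      omega
    rw [if_neg h1, if_neg h2, add_zero]

theorem det_hU (n : ℕ) : (hU n).det = 1 := by
  rw [Matrix.det_of_isLowerTriangular]
  · apply Finset.prod_eq_one
    intro i _
    unfold hU
    rw [if_pos le_rfl]
  · intro i j hij
    have hij' : i < j := hij
    unfold hU
    have h2 : ¬ j.val ≤ i.val := by
      have : i.val < j.val := hij'
      omega
    rw [if_neg h2]

theorem det_hA_leibniz (n : ℕ) : (hA n).det = ∑ σ : Equiv.Perm (Fin n),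
    ((Equiv.Perm.sign σ : ℤ) : MvPolynomial ℕ ℤ) *
      (if ∀ i : Fin n, (σ i).val ≤ i.val + 1 then
        monomial (∑ i ∈ univ.filter (fun i : Fin n => (σ i).val ≤ i.val),
          Finsupp.single (i.val + 1) 1) 1
      else 0) := by
  rw [← Matrix.det_transpose, Matrix.det_apply']
  apply Finset.sum_congr rfl
  intro σ _
  congr 1
  by_cases h : ∀ i : Fin n, (σ i).val ≤ i.val + 1
  · rw [if_pos h]
    have h1 : ∀ i : Fin n, (hA n).transpose (σ i) i =
        if (σ i).val ≤ i.val then monomial (Finsupp.single (i.val + 1) 1) 1 else 1 := by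
      intro i
      show hA n i (σ i) = _
      unfold hA
      by_cases h2 : (σ i).val ≤ i.val
      · rw [if_neg (by omega), if_pos h2, if_pos h2]
        rfl
      · rw [if_pos (by have := h i; omega), if_neg h2]
    rw [Finset.prod_congr rfl (fun i _ => h1 i), ← Finset.prod_filter,
      MvPolynomial.monomial_sum_one]
  · rw [if_neg h]
    push Not at h
    obtain ⟨i, hi⟩ := h
    apply Finset.prod_eq_zero (mem_univ i)
    show hA n i (σ i) = 0
    unfold hA
    rw [if_neg (by omega), if_neg (by omega)]

/-- the linear functional sending a monomial to the value of `Φ` at its support -/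
noncomputable def hL (Φ : Finset ℕ → ℤ) : MvPolynomial ℕ ℤ →ₗ[ℤ] ℤ :=
  (MvPolynomial.basisMonomials ℕ ℤ).constr ℤ (fun m => Φ m.support)

theorem hL_monomial (Φ : Finset ℕ → ℤ) (m : ℕ →₀ ℕ) :
    hL Φ (monomial m 1) = Φ m.support := by
  unfold hL
  have h := (MvPolynomial.basisMonomials ℕ ℤ).constr_basis ℤ (fun m => Φ m.support) m
  rw [MvPolynomial.coe_basisMonomials] at h
  exact h

theorem support_sum_single {ι : Type*} (D : Finset ι) (f : ι → ℕ) :
    (∑ i ∈ D, Finsupp.single (f i) 1 : ℕ →₀ ℕ).support = D.image f := by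
  classical
  ext k
  rw [Finsupp.mem_support_iff, Finsupp.finsetSum_apply, mem_image]
  simp only [Finsupp.single_apply]
  rw [Finset.sum_boole, Nat.cast_id, Finset.card_ne_zero, filter_nonempty_iff]

theorem hL_int_mul (Φ : Finset ℕ → ℤ) (c : ℤ) (m : ℕ →₀ ℕ) :
    hL Φ ((c : MvPolynomial ℕ ℤ) * monomial m 1) = c * Φ m.support := by
  rw [← zsmul_eq_mul, map_zsmul, hL_monomial, smul_eq_mul]

/-- the alternating sum over the permutations `κ` with `κ i ≤ i + 1` -/
theorem hess_sum (m : ℕ) (Φ : Finset ℕ → ℤ) :
    ∑ σ : Equiv.Perm (Fin (m + 1)),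
      (if ∀ i : Fin (m + 1), (σ i).val ≤ i.val + 1 then
        (Equiv.Perm.sign σ : ℤ) * Φ ((univ.filter (fun i : Fin (m + 1) =>
          (σ i).val ≤ i.val)).image (fun i : Fin (m + 1) => i.val + 1))
      else 0) =
    ∑ t ∈ (range m).powerset,
      (-1) ^ (m - t.card) * Φ ((insert m t).image (fun i => i + 1)) := by
  have h1 := congrArg (hL Φ) (det_hA_leibniz (m + 1))
  rw [hA_eq, Matrix.det_mul, det_hB, det_hU, mul_one, map_sum] at h1
  have h2 : ∀ σ : Equiv.Perm (Fin (m + 1)),
      hL Φ (((Equiv.Perm.sign σ : ℤ) : MvPolynomial ℕ ℤ) *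
        (if ∀ i : Fin (m + 1), (σ i).val ≤ i.val + 1 then
          monomial (∑ i ∈ univ.filter (fun i : Fin (m + 1) => (σ i).val ≤ i.val),
            Finsupp.single (i.val + 1) 1) 1
        else 0)) =
      (if ∀ i : Fin (m + 1), (σ i).val ≤ i.val + 1 then
        (Equiv.Perm.sign σ : ℤ) * Φ ((univ.filter (fun i : Fin (m + 1) =>
          (σ i).val ≤ i.val)).image (fun i : Fin (m + 1) => i.val + 1))
      else 0) := by
    intro σ
    by_cases h : ∀ i : Fin (m + 1), (σ i).val ≤ i.val + 1
    · rw [if_pos h, if_pos h, hL_int_mul, support_sum_single]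
    · rw [if_neg h, if_neg h, mul_zero, map_zero]
  rw [Finset.sum_congr rfl (fun σ _ => h2 σ)] at h1
  rw [← h1]
  have h3 : ∏ i : Fin (m + 1), hD (m + 1) i =
      ∑ t ∈ (range m).powerset, (((-1) ^ (m - t.card) : ℤ) : MvPolynomial ℕ ℤ) *
        monomial (∑ i ∈ insert m t, Finsupp.single (i + 1) 1) 1 := by
    rw [Fin.prod_univ_castSucc]
    have h4 : ∀ i : Fin m, hD (m + 1) i.castSucc = X (i.val + 1) + (-1) := by
      intro i
      unfold hD
      rw [if_pos (by simp), sub_eq_add_neg]
      rfl
    have h5 : hD (m + 1) (Fin.last m) = X (m + 1) := by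
      unfold hD
      rw [if_neg (by simp), sub_zero]
      rfl
    rw [Finset.prod_congr rfl (fun i _ => h4 i), h5,
      ← Finset.prod_range (fun i => (X (i + 1) + (-1) : MvPolynomial ℕ ℤ)),
      Finset.prod_add, Finset.sum_mul]
    apply Finset.sum_congr rfl
    intro t ht
    have ht' : t ⊆ range m := mem_powerset.mp ht
    have hm : m ∉ t := fun h => by
      have := mem_range.mp (ht' h)
      omega
    rw [Finset.sum_insert hm, add_comm (Finsupp.single (m + 1) 1) _,
      MvPolynomial.monomial_add_single, pow_one,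
      MvPolynomial.monomial_sum_one, Finset.prod_const, card_sdiff_of_subset ht', card_range]
    push_cast
    have h6 : ∀ i ∈ t, (monomial (Finsupp.single (i + 1) 1) 1 : MvPolynomial ℕ ℤ) = X (i + 1) :=
      fun i _ => rfl
    rw [Finset.prod_congr rfl h6]
    ring
  rw [h3, map_sum]
  apply Finset.sum_congr rfl
  intro t _
  rw [hL_int_mul, support_sum_single]

end Cfsg.Agent.Lib.Helper58.HessDet
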