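import Mathlib
import Cfsg.Prelude.Def_LocalEven

set_option autoImplicit false

namespace Cfsg.Agent.Lib.Helper58.NatSL2

open Matrix

variable {F : Type*} [Field F]

local notation "SL2" => Matrix.SpecialLinearGroup (Fin 2) F

theorem mulVec_eq (m : SL2) (v : Fin 2 → F) :
    m.1 *ᵥ v = ![m 0 0 * v 0 + m 0 1 * v 1, m 1 0 * v 0 + m 1 1 * v 1] := by
  funext i
  fin_cases i <;> simp [Matrix.mulVec, dotProduct, Fin.sum_univ_two]

theorem det_eq (m : SL2) : m 0 0 * m 1 1 - m 0 1 * m 1 0 = 1 := by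
  have := m.det_coe
  rw [Matrix.det_fin_two] at this
  exact this

/-- The upper unitriangular matrix. -/
def uu (a : F) : SL2 := ⟨!![1, a; 0, 1], by simp [Matrix.det_fin_two]⟩

/-- The diagonal matrix `diag(a, a⁻¹)`. -/
def hh (a : F) (ha : a ≠ 0) : SL2 := ⟨!![a, 0; 0, a⁻¹], by simp [Matrix.det_fin_two, ha]⟩

@[simp] theorem uu_00 (a : F) : uu a 0 0 = 1 := rfl
@[simp] theorem uu_01 (a : F) : uu a 0 1 = a := rfl
@[simp] theorem uu_10 (a : F) : uu a 1 0 = 0 := rfl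
@[simp] theorem uu_11 (a : F) : uu a 1 1 = 1 := rfl
@[simp] theorem hh_00 (a : F) (ha : a ≠ 0) : hh a ha 0 0 = a := rfl
@[simp] theorem hh_01 (a : F) (ha : a ≠ 0) : hh a ha 0 1 = 0 := rfl
@[simp] theorem hh_10 (a : F) (ha : a ≠ 0) : hh a ha 1 0 = 0 := rfl
@[simp] theorem hh_11 (a : F) (ha : a ≠ 0) : hh a ha 1 1 = a⁻¹ := rfl

theorem mul_00 (m k : SL2) : (m * k) 0 0 = m 0 0 * k 0 0 + m 0 1 * k 1 0 := by
  simp [Matrix.SpecialLinearGroup.coe_mul, Matrix.mul_apply, Fin.sum_univ_two]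
theorem mul_01 (m k : SL2) : (m * k) 0 1 = m 0 0 * k 0 1 + m 0 1 * k 1 1 := by
  simp [Matrix.SpecialLinearGroup.coe_mul, Matrix.mul_apply, Fin.sum_univ_two]
theorem mul_10 (m k : SL2) : (m * k) 1 0 = m 1 0 * k 0 0 + m 1 1 * k 1 0 := by
  simp [Matrix.SpecialLinearGroup.coe_mul, Matrix.mul_apply, Fin.sum_univ_two]
theorem mul_11 (m k : SL2) : (m * k) 1 1 = m 1 0 * k 0 1 + m 1 1 * k 1 1 := by
  simp [Matrix.SpecialLinearGroup.coe_mul, Matrix.mul_apply, Fin.sum_univ_two]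
theorem inv_00 (m : SL2) : (m⁻¹ : SL2) 0 0 = m 1 1 := by
  simp [Matrix.SpecialLinearGroup.coe_inv, Matrix.adjugate_fin_two]
theorem inv_01 (m : SL2) : (m⁻¹ : SL2) 0 1 = - m 0 1 := by
  simp [Matrix.SpecialLinearGroup.coe_inv, Matrix.adjugate_fin_two]
theorem inv_10 (m : SL2) : (m⁻¹ : SL2) 1 0 = - m 1 0 := by
  simp [Matrix.SpecialLinearGroup.coe_inv, Matrix.adjugate_fin_two]
theorem inv_11 (m : SL2) : (m⁻¹ : SL2) 1 1 = m 0 0 := by
  simp [Matrix.SpecialLinearGroup.coe_inv, Matrix.adjugate_fin_two]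
@[simp] theorem one_00 : (1 : SL2) 0 0 = 1 := by simp
@[simp] theorem one_01 : (1 : SL2) 0 1 = 0 := by simp
@[simp] theorem one_10 : (1 : SL2) 1 0 = 0 := by simp
@[simp] theorem one_11 : (1 : SL2) 1 1 = 1 := by simp

theorem ext4 {m k : SL2} (h00 : m 0 0 = k 0 0) (h01 : m 0 1 = k 0 1) (h10 : m 1 0 = k 1 0)
    (h11 : m 1 1 = k 1 1) : m = k := by
  ext i j
  fin_cases i <;> fin_cases j <;> assumption

/-- The upper unitriangular subgroup. -/
def U (F : Type*) [Field F] : Subgroup (Matrix.SpecialLinearGroup (Fin 2) F) where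
  carrier := {m | m 0 0 = 1 ∧ m 1 0 = 0 ∧ m 1 1 = 1}
  mul_mem' := by
    rintro a b ⟨a00, a10, a11⟩ ⟨b00, b10, b11⟩
    refine ⟨?_, ?_, ?_⟩
    · rw [mul_00, a00, b00, b10]; ring
    · rw [mul_10, a10, b10]; ring
    · rw [mul_11, a10, a11, b11]; ring
  one_mem' := ⟨one_00, one_10, one_11⟩
  inv_mem' := by
    rintro a ⟨a00, a10, a11⟩
    exact ⟨by rw [inv_00, a11], by rw [inv_10, a10, neg_zero], by rw [inv_11, a00]⟩

theorem mem_U {m : SL2} : m ∈ U F ↔ m 0 0 = 1 ∧ m 1 0 = 0 ∧ m 1 1 = 1 := Iff.rfl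

theorem uu_mem (a : F) : uu a ∈ U F := ⟨rfl, rfl, rfl⟩

theorem eq_uu_of_mem {m : SL2} (hm : m ∈ U F) : m = uu (m 0 1) :=
  ext4 hm.1 rfl hm.2.1 hm.2.2

theorem uu_injective : Function.Injective (uu : F → SL2) := by
  intro a b h
  have := congrArg (fun m : SL2 => m 0 1) h
  simpa using this

theorem uu_eq_one_iff (a : F) : uu a = 1 ↔ a = 0 := by
  constructor
  · intro h
    have := congrArg (fun m : SL2 => m 0 1) h
    simpa using this
  · rintro rfl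
    exact ext4 (by simp) (by simp) (by simp) (by simp)

theorem uu_mulVec (a : F) (v : Fin 2 → F) : (uu a).1 *ᵥ v = ![v 0 + a * v 1, v 1] := by
  rw [mulVec_eq]; simp

theorem hh_mulVec (a : F) (ha : a ≠ 0) (v : Fin 2 → F) :
    (hh a ha).1 *ᵥ v = ![a * v 0, a⁻¹ * v 1] := by
  rw [mulVec_eq]; simp

/-- Upper triangular matrices normalize `U`. -/
theorem conj_mem_U {b u : SL2} (hb : b 1 0 = 0) (hu : u ∈ U F) : b * u * b⁻¹ ∈ U F := by
  obtain ⟨u00, u10, u11⟩ := hu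
  have hdet := det_eq b
  rw [hb, mul_zero, sub_zero] at hdet
  refine ⟨?_, ?_, ?_⟩
  · rw [mul_00, mul_00, mul_01, inv_00, inv_10, hb, u00, u10, u11]; linear_combination hdet
  · rw [mul_10, mul_10, mul_11, inv_00, inv_10, hb, u00, u10, u11]; ring
  · rw [mul_11, mul_10, mul_11, inv_01, inv_11, hb, u00, u10, u11]; linear_combination hdet

theorem card_U [Fintype F] : Nat.card (U F) = Fintype.card F := by
  rw [← Nat.card_eq_fintype_card]
  apply Nat.card_congr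
  exact
    { toFun := fun m => (m : SL2) 0 1
      invFun := fun a => ⟨uu a, uu_mem a⟩
      left_inv := fun m => Subtype.ext (eq_uu_of_mem m.2).symm
      right_inv := fun a => rfl }

theorem isPGroup_U [Fintype F] {p n : ℕ} (hF : Fintype.card F = p ^ n) : IsPGroup p (U F) :=
  IsPGroup.of_card (card_U.trans hF)

/-- A matrix of `SL₂` with prescribed first column. -/
theorem exists_first_col {v : Fin 2 → F} (hv : v ≠ 0) :
    ∃ g : SL2, g 0 0 = v 0 ∧ g 1 0 = v 1 := by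
  by_cases h0 : v 0 = 0
  · have h1 : v 1 ≠ 0 := by
      intro h1
      apply hv
      funext i
      fin_cases i
      · exact h0
      · exact h1
    exact ⟨⟨!![0, -(v 1)⁻¹; v 1, 0], by simp [Matrix.det_fin_two, h1]⟩, h0.symm, rfl⟩
  · exact ⟨⟨!![v 0, 0; v 1, (v 0)⁻¹], by simp [Matrix.det_fin_two, h0]⟩, rfl, rfl⟩

/-- A `p`-subgroup of `SL₂(F)` (`F` finite of characteristic `p`) lies in a conjugate of `U`. -/
theorem exists_conj_le_U [Fintype F] {p n : ℕ} [Fact p.Prime] (hF : Fintype.card F = p ^ n)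
    (P : Subgroup SL2) (hP : IsPGroup p P) :
    ∃ g : SL2, ∀ m ∈ P, g⁻¹ * m * g ∈ U F := by
  classical
  have hn : n ≠ 0 := by
    rintro rfl
    have := Fintype.one_lt_card (α := F)
    rw [hF] at this
    simp at this
  have hcard : p ∣ Nat.card (Fin 2 → F) := by
    rw [Nat.card_eq_fintype_card, Fintype.card_fun, hF, Fintype.card_fin]
    exact dvd_pow (dvd_pow_self p hn) (by norm_num)
  have h0 : (0 : Fin 2 → F) ∈ MulAction.fixedPoints P (Fin 2 → F) := by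
    intro m
    exact smul_zero _
  obtain ⟨v, hv, hv0⟩ := hP.exists_fixed_point_of_prime_dvd_card_of_fixed_point (Fin 2 → F) hcard h0
  obtain ⟨g, hg0, hg1⟩ := exists_first_col (Ne.symm hv0)
  refine ⟨g, fun m hm => ?_⟩
  have hfix : m.1 *ᵥ v = v := hv ⟨m, hm⟩
  rw [mulVec_eq] at hfix
  have e0 : m 0 0 * v 0 + m 0 1 * v 1 = v 0 := by
    have := congrFun hfix 0; simpa using this
  have e1 : m 1 0 * v 0 + m 1 1 * v 1 = v 1 := by
    have := congrFun hfix 1; simpa using this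
  have hdg := det_eq g
  have hdm := det_eq m
  rw [hg0, hg1] at hdg
  have c00 : (g⁻¹ * m * g) 0 0 = 1 := by
    rw [mul_00, mul_00, mul_01, inv_00, inv_01, hg0, hg1]
    linear_combination (g 1 1) * e0 - (g 0 1) * e1 + hdg
  have c10 : (g⁻¹ * m * g) 1 0 = 0 := by
    rw [mul_10, mul_10, mul_11, inv_10, inv_11, hg0, hg1]
    linear_combination (-(v 1)) * e0 + (v 0) * e1
  refine ⟨c00, c10, ?_⟩
  have hd := det_eq (g⁻¹ * m * g)
  rw [c00, c10, mul_zero, sub_zero, one_mul] at hd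
  exact hd

theorem uu_mul (a b : F) : uu a * uu b = uu (a + b) := by
  apply ext4
  · rw [mul_00]; simp
  · rw [mul_01]; simp [add_comm]
  · rw [mul_10]; simp
  · rw [mul_11]; simp

theorem uu_pow (a : F) (k : ℕ) : uu a ^ k = uu (k * a) := by
  induction k with
  | zero => simp [(uu_eq_one_iff (0 : F)).mpr rfl]
  | succ k ih =>
    rw [pow_succ, ih, uu_mul]
    congr 1
    push_cast
    ring

/-- For a nonzero vector `v` there is `g` conjugating every matrix fixing `v` into `U`. -/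
theorem exists_conj_of_fixed {v : Fin 2 → F} (hv : v ≠ 0) :
    ∃ g : SL2, ∀ m : SL2, m.1 *ᵥ v = v → g⁻¹ * m * g ∈ U F := by
  obtain ⟨g, hg0, hg1⟩ := exists_first_col hv
  refine ⟨g, fun m hfix => ?_⟩
  rw [mulVec_eq] at hfix
  have e0 : m 0 0 * v 0 + m 0 1 * v 1 = v 0 := by
    have := congrFun hfix 0; simpa using this
  have e1 : m 1 0 * v 0 + m 1 1 * v 1 = v 1 := by
    have := congrFun hfix 1; simpa using this
  have hdg := det_eq g
  have hdm := det_eq m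
  rw [hg0, hg1] at hdg
  have c00 : (g⁻¹ * m * g) 0 0 = 1 := by
    rw [mul_00, mul_00, mul_01, inv_00, inv_01, hg0, hg1]
    linear_combination (g 1 1) * e0 - (g 0 1) * e1 + hdg
  have c10 : (g⁻¹ * m * g) 1 0 = 0 := by
    rw [mul_10, mul_10, mul_11, inv_10, inv_11, hg0, hg1]
    linear_combination (-(v 1)) * e0 + (v 0) * e1
  refine ⟨c00, c10, ?_⟩
  have hd := det_eq (g⁻¹ * m * g)
  rw [c00, c10, mul_zero, sub_zero, one_mul] at hd
  exact hd

/-- In characteristic `p`, an element of `SL₂(F)` fixing a nonzero vector has order dividing `p`. -/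
theorem pow_eq_one_of_fixed [Fintype F] {p n : ℕ} (hF : Fintype.card F = p ^ n)
    {v : Fin 2 → F} (hv : v ≠ 0) {m : SL2} (hfix : m.1 *ᵥ v = v) : m ^ p = 1 := by
  have hp0 : (p : F) = 0 := by
    have h1 : ((Fintype.card F : ℕ) : F) = 0 := Nat.cast_card_eq_zero F
    rw [hF] at h1
    push_cast at h1
    have hn : n ≠ 0 := by
      rintro rfl
      have := Fintype.one_lt_card (α := F)
      rw [hF] at this
      simp at this
    exact (pow_eq_zero_iff hn).mp h1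
  obtain ⟨g, hg⟩ := exists_conj_of_fixed hv
  have h1 := eq_uu_of_mem (hg m hfix)
  have h2 : (g⁻¹ * m * g) ^ p = 1 := by
    rw [h1, uu_pow, hp0, zero_mul]
    exact (uu_eq_one_iff 0).mpr rfl
  have h3 : (g⁻¹ * m * g) ^ p = g⁻¹ * m ^ p * g := by
    have := conj_pow (a := g⁻¹) (b := m) (i := p)
    rw [inv_inv] at this
    exact this
  rw [h3] at h2
  have h4 : m ^ p = g * (g⁻¹ * m ^ p * g) * g⁻¹ := by group
  rw [h4, h2]
  group

section Coords

variable {G : Type*} [Group G]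

/-- Standard coordinates for a natural `SL₂(F)`-module `V` for `L` in which the subgroup `T`
of `L` corresponds to the upper unitriangular group. -/
structure Coords (F : Type*) [Field F] (V L T : Subgroup G) where
  ρ : L →* Matrix.SpecialLinearGroup (Fin 2) F
  ψ : Additive V ≃+ (Fin 2 → F)
  inj : Function.Injective ρ
  surj : Function.Surjective ρ
  conj : ∀ (l : L) (v : V), ∃ w : V, (w : G) = (l : G) * (v : G) * (l : G)⁻¹ ∧
    ψ (Additive.ofMul w) = (ρ l).1 *ᵥ ψ (Additive.ofMul v)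
  hT : ∀ l : L, (l : G) ∈ T ↔ ρ l ∈ U F
  hTL : T ≤ L
  hLV : L ≤ Subgroup.normalizer (V : Set G)

theorem exists_coords [Fintype F] {p n : ℕ} [Fact p.Prime] (hF : Fintype.card F = p ^ n)
    (V L : Subgroup G) (hnat : Cfsg.IsNaturalSL2Module F V L)
    (hf : L ⊓ Subgroup.centralizer (V : Set G) = ⊥) (S : Sylow p ↥L) (T : Subgroup G)
    (hT : T = ((S : Subgroup ↥L).map L.subtype)) : Nonempty (Coords F V L T) := by
  obtain ⟨hLV, ρ₀, ψ₀, hsurj, hker, hconj⟩ := hnat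
  have hinj : Function.Injective ρ₀ := by
    rw [← MonoidHom.ker_eq_bot_iff, hker, Subgroup.subgroupOf_eq_bot, disjoint_iff, inf_comm]
    exact hf
  let P : Subgroup (Matrix.SpecialLinearGroup (Fin 2) F) := (S : Subgroup L).map ρ₀
  have hP : IsPGroup p P := S.isPGroup'.map ρ₀
  obtain ⟨g, hg⟩ := exists_conj_le_U hF P hP
  let ρ : L →* Matrix.SpecialLinearGroup (Fin 2) F := (MulAut.conj g⁻¹).toMonoidHom.comp ρ₀
  have hρ : ∀ l, ρ l = g⁻¹ * ρ₀ l * g := by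
    intro l
    simp [ρ]
  have hρinj : Function.Injective ρ := by
    intro a b hab
    rw [hρ, hρ] at hab
    apply hinj
    simpa using hab
  let ψ : Additive V ≃+ (Fin 2 → F) :=
    ψ₀.trans (Matrix.SpecialLinearGroup.toLin' g⁻¹).toAddEquiv
  have hψ : ∀ x, ψ x = g⁻¹ • ψ₀ x := fun x => rfl
  have hTS : ∀ l : L, (l : G) ∈ T ↔ l ∈ (S : Subgroup L) := by
    intro l
    rw [hT]
    constructor
    · rintro ⟨l', hl', h⟩
      have : l' = l := Subtype.ext h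
      rwa [← this]
    · intro h
      exact ⟨l, h, rfl⟩
  refine ⟨⟨ρ, ψ, hρinj, ?_, ?_, ?_, ?_, hLV⟩⟩
  · intro m
    obtain ⟨l, hl⟩ := hsurj (g * m * g⁻¹)
    exact ⟨l, by rw [hρ, hl]; group⟩
  · intro l v
    obtain ⟨w, hw, hw2⟩ := hconj l v
    refine ⟨w, hw, ?_⟩
    rw [hψ, hψ, hw2, hρ]
    show g⁻¹ • (ρ₀ l • ψ₀ (Additive.ofMul v)) = (g⁻¹ * ρ₀ l * g) • (g⁻¹ • ψ₀ (Additive.ofMul v))
    rw [← mul_smul, ← mul_smul]
    congr 1
    group
  · intro l
    rw [hTS, hρ]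
    constructor
    · intro hl
      exact hg _ ⟨l, hl, rfl⟩
    · intro hl
      have hS' : IsPGroup p ((U F).comap ρ) := (isPGroup_U hF).comap_of_injective ρ hρinj
      have hle : (S : Subgroup L) ≤ (U F).comap ρ := by
        intro x hx
        show ρ x ∈ U F
        rw [hρ]
        exact hg _ ⟨x, hx, rfl⟩
      have h1 := S.is_maximal' hS' hle
      have hmem : l ∈ (U F).comap ρ := by
        show ρ l ∈ U F
        rw [hρ]
        exact hl
      rw [h1] at hmem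
      exact hmem
  · rw [hT]
    rintro _ ⟨l, _, rfl⟩
    exact l.2

namespace Coords

variable {V L T : Subgroup G} (c : Coords F V L T)

/-- Coordinates of an element of `V`. -/
def co (v : V) : Fin 2 → F := c.ψ (Additive.ofMul v)

theorem co_mul (v w : V) : c.co (v * w) = c.co v + c.co w := by
  simp [co, ofMul_mul]

theorem co_one : c.co 1 = 0 := by
  simp [co]

theorem co_inv (v : V) : c.co v⁻¹ = - c.co v := by
  simp [co, ofMul_inv]

theorem co_inj {v w : V} (h : c.co v = c.co w) : v = w := by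
  have := c.ψ.injective h
  exact Additive.ofMul.injective this

theorem co_surj (x : Fin 2 → F) : ∃ v : V, c.co v = x := by
  obtain ⟨a, ha⟩ := c.ψ.surjective x
  exact ⟨Additive.toMul a, ha⟩

theorem comm (c : Coords F V L T) (v w : V) : v * w = w * v := by
  apply c.co_inj
  rw [co_mul, co_mul, add_comm]

theorem co_eq_zero {v : V} : c.co v = 0 ↔ v = 1 := by
  constructor
  · intro h
    apply c.co_inj
    rw [h, co_one]
  · rintro rfl
    exact c.co_one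

theorem conj_mem (c : Coords F V L T) {l : G} (hl : l ∈ L) (v : V) : l * (v : G) * l⁻¹ ∈ V := by
  obtain ⟨w, hw, _⟩ := c.conj ⟨l, hl⟩ v
  rw [← hw]
  exact w.2

theorem co_conj {l : G} (hl : l ∈ L) (v : V) :
    c.co ⟨l * (v : G) * l⁻¹, c.conj_mem hl v⟩ = (c.ρ ⟨l, hl⟩).1 *ᵥ c.co v := by
  obtain ⟨w, hw, hw2⟩ := c.conj ⟨l, hl⟩ v
  have : w = ⟨l * (v : G) * l⁻¹, c.conj_mem hl v⟩ := Subtype.ext hw
  rw [← this]
  exact hw2

theorem exists_uu {t : G} (ht : t ∈ T) : ∃ a : F, c.ρ ⟨t, c.hTL ht⟩ = uu a := by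
  have := (c.hT ⟨t, c.hTL ht⟩).mp ht
  exact ⟨_, eq_uu_of_mem this⟩

theorem exists_T (a : F) : ∃ t : G, ∃ ht : t ∈ T, c.ρ ⟨t, c.hTL ht⟩ = uu a := by
  obtain ⟨l, hl⟩ := c.surj (uu a)
  have : (l : G) ∈ T := (c.hT l).mpr (by rw [hl]; exact uu_mem a)
  exact ⟨l, this, hl⟩

theorem uu_ne_zero {t : G} (ht : t ∈ T) (ht1 : t ≠ 1) {a : F}
    (ha : c.ρ ⟨t, c.hTL ht⟩ = uu a) : a ≠ 0 := by
  rintro rfl
  apply ht1
  have h1 : c.ρ ⟨t, c.hTL ht⟩ = c.ρ 1 := by
    rw [ha, map_one]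
    exact (uu_eq_one_iff 0).mpr rfl
  have := c.inj h1
  exact congrArg Subtype.val this

theorem mem_centralizer_singleton {x : G} (hx : x ∈ L) (v : V) :
    (v : G) ∈ Subgroup.centralizer ({x} : Set G) ↔ (c.ρ ⟨x, hx⟩).1 *ᵥ c.co v = c.co v := by
  rw [← c.co_conj hx v, Subgroup.mem_centralizer_iff]
  constructor
  · intro h
    have h1 : x * (v : G) * x⁻¹ = v := by
      rw [h x rfl]; group
    congr 1
    exact Subtype.ext h1
  · intro h y hy
    rw [Set.mem_singleton_iff] at hy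
    subst hy
    have h1 : y * (v : G) * y⁻¹ = v := congrArg Subtype.val (c.co_inj h)
    calc y * (v : G) = (y * (v : G) * y⁻¹) * y := by group
      _ = (v : G) * y := by rw [h1]

theorem mem_centralizer_T (v : V) :
    (v : G) ∈ Subgroup.centralizer (T : Set G) ↔ c.co v 1 = 0 := by
  constructor
  · intro h
    obtain ⟨t, ht, hta⟩ := c.exists_T 1
    have h1 : (v : G) ∈ Subgroup.centralizer ({t} : Set G) :=
      Subgroup.centralizer_le (Set.singleton_subset_iff.mpr ht) h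
    rw [c.mem_centralizer_singleton (c.hTL ht), hta, uu_mulVec] at h1
    have h2 := congrFun h1 0
    simpa using h2
  · intro h
    rw [Subgroup.mem_centralizer_iff]
    intro t ht
    obtain ⟨a, hta⟩ := c.exists_uu ht
    have h1 : (v : G) ∈ Subgroup.centralizer ({t} : Set G) := by
      rw [c.mem_centralizer_singleton (c.hTL ht), hta, uu_mulVec, h]
      funext i
      fin_cases i <;> simp [h]
    rw [Subgroup.mem_centralizer_iff] at h1
    exact h1 t rfl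

/-- Membership in `C_V(T)`. -/
theorem mem_W {g : G} :
    g ∈ V ⊓ Subgroup.centralizer (T : Set G) ↔ ∃ hg : g ∈ V, c.co ⟨g, hg⟩ 1 = 0 := by
  constructor
  · rintro ⟨hV, hC⟩
    exact ⟨hV, (c.mem_centralizer_T ⟨g, hV⟩).mp hC⟩
  · rintro ⟨hV, h⟩
    exact ⟨hV, (c.mem_centralizer_T ⟨g, hV⟩).mpr h⟩

theorem comm_mem (c : Coords F V L T) {t : G} (ht : t ∈ L) (v : V) :
    (v : G) * t * (v : G)⁻¹ * t⁻¹ ∈ V := by
  have h1 := c.conj_mem ht v⁻¹
  have h2 := V.mul_mem v.2 h1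
  have : (v : G) * (t * ((v⁻¹ : V) : G) * t⁻¹) = (v : G) * t * (v : G)⁻¹ * t⁻¹ := by
    simp [mul_assoc]
  rwa [this] at h2

theorem co_comm {t : G} (ht : t ∈ L) (v : V) :
    c.co ⟨(v : G) * t * (v : G)⁻¹ * t⁻¹, c.comm_mem ht v⟩
      = c.co v - (c.ρ ⟨t, ht⟩).1 *ᵥ c.co v := by
  have h1 : (⟨(v : G) * t * (v : G)⁻¹ * t⁻¹, c.comm_mem ht v⟩ : V)
      = v * ⟨t * ((v⁻¹ : V) : G) * t⁻¹, c.conj_mem ht v⁻¹⟩ := by
    apply Subtype.ext
    simp [mul_assoc]
  rw [h1, co_mul, co_conj, co_inv, Matrix.mulVec_neg, sub_eq_add_neg]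

theorem co_comm_uu {t : G} (ht : t ∈ T) (v : V) {a : F} (ha : c.ρ ⟨t, c.hTL ht⟩ = uu a) :
    c.co ⟨(v : G) * t * (v : G)⁻¹ * t⁻¹, c.comm_mem (c.hTL ht) v⟩ = ![- a * c.co v 1, 0] := by
  rw [c.co_comm (c.hTL ht) v, ha, uu_mulVec]
  funext i
  fin_cases i <;> simp

theorem mem_normalizer_of {g : G} (hg : g ∈ L) (h10 : (c.ρ ⟨g, hg⟩) 1 0 = 0) :
    g ∈ Subgroup.normalizer (T : Set G) := by
  have key : ∀ (b : G) (hb : b ∈ L), (c.ρ ⟨b, hb⟩) 1 0 = 0 → ∀ t ∈ T, b * t * b⁻¹ ∈ T := by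
    intro b hb hb10 t ht
    have htL := c.hTL ht
    have hmem : b * t * b⁻¹ ∈ L := L.mul_mem (L.mul_mem hb htL) (L.inv_mem hb)
    have h1 : c.ρ ⟨b * t * b⁻¹, hmem⟩ = c.ρ ⟨b, hb⟩ * c.ρ ⟨t, htL⟩ * (c.ρ ⟨b, hb⟩)⁻¹ := by
      rw [← map_inv, ← map_mul, ← map_mul]
      rfl
    have h2 := (c.hT ⟨b * t * b⁻¹, hmem⟩).mpr (by
      rw [h1]
      exact conj_mem_U hb10 ((c.hT ⟨t, htL⟩).mp ht))
    exact h2
  rw [Subgroup.mem_normalizer_iff]
  intro t
  constructor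
  · exact key g hg h10 t
  · intro ht
    have hinv : (c.ρ ⟨g⁻¹, L.inv_mem hg⟩) 1 0 = 0 := by
      have : c.ρ ⟨g⁻¹, L.inv_mem hg⟩ = (c.ρ ⟨g, hg⟩)⁻¹ := by
        rw [← map_inv]; rfl
      rw [this, inv_10, h10, neg_zero]
    have := key g⁻¹ (L.inv_mem hg) hinv _ ht
    simpa [mul_assoc] using this

theorem exists_hh (a : F) (ha : a ≠ 0) :
    ∃ h : G, ∃ hL : h ∈ L, h ∈ Subgroup.normalizer (T : Set G) ∧ c.ρ ⟨h, hL⟩ = hh a ha := by
  obtain ⟨l, hl⟩ := c.surj (hh a ha)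
  refine ⟨l, l.2, ?_, hl⟩
  apply c.mem_normalizer_of l.2
  have : c.ρ ⟨l, l.2⟩ = hh a ha := hl
  rw [this]
  rfl

theorem mem_centralizer_conj {g : G} (hg : g ∈ L) (v : V) :
    (v : G) ∈ Subgroup.centralizer ((T.map (MulAut.conj g).toMonoidHom : Subgroup G) : Set G)
      ↔ - (c.ρ ⟨g, hg⟩) 1 0 * c.co v 0 + (c.ρ ⟨g, hg⟩) 0 0 * c.co v 1 = 0 := by
  have hginv : g⁻¹ ∈ L := L.inv_mem hg
  have hwV : g⁻¹ * (v : G) * g⁻¹⁻¹ ∈ V := c.conj_mem hginv v
  have hco : c.co ⟨g⁻¹ * (v : G) * g⁻¹⁻¹, hwV⟩ 1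
      = - (c.ρ ⟨g, hg⟩) 1 0 * c.co v 0 + (c.ρ ⟨g, hg⟩) 0 0 * c.co v 1 := by
    rw [c.co_conj hginv v, mulVec_eq]
    have : c.ρ ⟨g⁻¹, hginv⟩ = (c.ρ ⟨g, hg⟩)⁻¹ := by
      rw [← map_inv]; rfl
    rw [this, inv_10, inv_11]
    simp
  rw [← hco, ← c.mem_centralizer_T ⟨g⁻¹ * (v : G) * g⁻¹⁻¹, hwV⟩]
  rw [Subgroup.mem_centralizer_iff, Subgroup.mem_centralizer_iff]
  constructor
  · intro h t ht
    have h1 := h (g * t * g⁻¹) ⟨t, ht, by simp [MulAut.conj_apply]⟩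
    show t * (g⁻¹ * (v : G) * g⁻¹⁻¹) = g⁻¹ * (v : G) * g⁻¹⁻¹ * t
    rw [inv_inv]
    have h2 : t * (g⁻¹ * (v : G) * g) = g⁻¹ * (g * t * g⁻¹ * (v : G)) * g := by group
    rw [h2, h1]
    group
  · rintro h _ ⟨t, ht, rfl⟩
    have h1 := h t ht
    have h1' : t * (g⁻¹ * (v : G) * g⁻¹⁻¹) = g⁻¹ * (v : G) * g⁻¹⁻¹ * t := h1
    rw [inv_inv] at h1'
    show g * t * g⁻¹ * (v : G) = (v : G) * (g * t * g⁻¹)
    have h2 : g * t * g⁻¹ * (v : G) = g * (t * (g⁻¹ * (v : G) * g)) * g⁻¹ := by group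
    rw [h2, h1']
    group

end Coords

end Coords

end Cfsg.Agent.Lib.Helper58.NatSL2
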