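import Mathlib

set_option autoImplicit false

/-!
The Möbius function `μ(⊥, ·)` of a finite modular lattice: invariance under perspectivity and the
recursion along an atom.
-/

namespace Cfsg.Agent.Lib.Helper58.SubMob

open Finset

section Lattice

variable {L : Type*} [Lattice L] [IsModularLattice L] [OrderBot L] [Fintype L]

open Classical in
/-- `c` is the Möbius function `μ(⊥, ·)` of a finite lattice -/
def IsMob (c : L → ℤ) : Prop :=
  c ⊥ = 1 ∧ ∀ w : L, w ≠ ⊥ → ∑ u ∈ univ.filter (fun u => u ≤ w), c u = 0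

open Classical in
omit [IsModularLattice L] [OrderBot L] in
theorem sum_le_split (c : L → ℤ) (w : L) :
    ∑ u ∈ univ.filter (fun u => u ≤ w), c u =
      c w + ∑ u ∈ univ.filter (fun u => u < w), c u := by
  have h : univ.filter (fun u : L => u ≤ w) = insert w (univ.filter (fun u => u < w)) := by
    ext u
    simp only [mem_filter, mem_univ, true_and, mem_insert]
    rw [le_iff_lt_or_eq]
    tauto
  rw [h, sum_insert (by simp)]

open Classical in
omit [IsModularLattice L] in
theorem mob_unique {c c' : L → ℤ} (hc : IsMob c) (hc' : IsMob c') : c = c' := by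
  funext w
  induction w using WellFoundedLT.induction with
  | _ w ih =>
    by_cases hw : w = ⊥
    · rw [hw, hc.1, hc'.1]
    · have h1 := hc.2 w hw
      have h2 := hc'.2 w hw
      rw [sum_le_split] at h1 h2
      have : ∑ u ∈ univ.filter (fun u => u < w), c u =
          ∑ u ∈ univ.filter (fun u => u < w), c' u :=
        sum_congr rfl (fun u hu => ih u (mem_filter.mp hu).2)
      linarith

omit [OrderBot L] [Fintype L] in
theorem mod_aux {a x w : L} (h : x ≤ w ⊔ a) (hax : a ≤ x) : x ⊓ w ⊔ a = x := by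
  rw [sup_comm, inf_comm, ← sup_inf_assoc_of_le w hax, sup_comm]
  exact inf_eq_right.mpr h

omit [Fintype L] in
theorem persp_inv {a u w u' : L} (hu : u ⊓ a = ⊥) (huw : u ⊔ a = w ⊔ a) (hu' : u' ≤ u) :
    ((u' ⊔ a) ⊓ w ⊔ a) ⊓ u = u' := by
  rw [mod_aux (huw ▸ sup_le_sup_right hu' a) le_sup_right, sup_inf_assoc_of_le a hu',
    inf_comm a u, hu, sup_bot_eq]

open Classical in
theorem mob_perspective {c : L → ℤ} (hc : IsMob c) (a : L) :
    ∀ w u : L, u ⊓ a = ⊥ → w ⊓ a = ⊥ → u ⊔ a = w ⊔ a → c u = c w := by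
  intro w
  induction w using WellFoundedLT.induction with
  | _ w ih =>
    intro u hu hw huw
    by_cases hw0 : w = ⊥
    · have h1 : u ≤ a := by
        have : u ⊔ a = a := by rw [huw, hw0, bot_sup_eq]
        exact sup_eq_right.mp this
      have hu0 : u = ⊥ := by rw [← hu]; exact (inf_eq_left.mpr h1).symm
      rw [hu0, hw0]
    · have hu0 : u ≠ ⊥ := by
        rintro rfl
        apply hw0
        have h1 : w ≤ a := by
          have : w ⊔ a = a := by rw [← huw, bot_sup_eq]
          exact sup_eq_right.mp this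
        rw [← hw]; exact (inf_eq_left.mpr h1).symm
      have h1 := hc.2 u hu0
      have h2 := hc.2 w hw0
      rw [sum_le_split] at h1 h2
      have key : ∑ u' ∈ univ.filter (fun u' => u' < u), c u' =
          ∑ w' ∈ univ.filter (fun w' => w' < w), c w' := by
        refine sum_nbij' (fun u' => (u' ⊔ a) ⊓ w) (fun w' => (w' ⊔ a) ⊓ u) ?_ ?_ ?_ ?_ ?_
        · intro u' hu'
          have hlt := (mem_filter.mp hu').2
          simp only [mem_filter, mem_univ, true_and]
          refine lt_of_le_of_ne inf_le_right ?_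
          intro h
          have h3 := persp_inv hu huw hlt.le
          rw [h, ← huw, inf_eq_right.mpr le_sup_left] at h3
          exact hlt.ne h3.symm
        · intro w' hw'
          have hlt := (mem_filter.mp hw').2
          simp only [mem_filter, mem_univ, true_and]
          refine lt_of_le_of_ne inf_le_right ?_
          intro h
          have h3 := persp_inv hw huw.symm hlt.le
          rw [h, huw, inf_eq_right.mpr le_sup_left] at h3
          exact hlt.ne h3.symm
        · intro u' hu'
          exact persp_inv hu huw (mem_filter.mp hu').2.le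
        · intro w' hw'
          exact persp_inv hw huw.symm (mem_filter.mp hw').2.le
        · intro u' hu'
          have hlt := (mem_filter.mp hu').2
          have hlt' : (u' ⊔ a) ⊓ w < w := by
            refine lt_of_le_of_ne inf_le_right ?_
            intro h
            have h3 := persp_inv hu huw hlt.le
            rw [h, ← huw, inf_eq_right.mpr le_sup_left] at h3
            exact hlt.ne h3.symm
          refine ih _ hlt' u' ?_ ?_ ?_
          · exact le_bot_iff.mp (hu ▸ inf_le_inf_right a hlt.le)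
          · exact le_bot_iff.mp (hw ▸ inf_le_inf_right a inf_le_right)
          · exact (mod_aux (huw ▸ sup_le_sup_right hlt.le a) le_sup_right).symm
      linarith

open Classical in
theorem mob_atom {c : L → ℤ} (hc : IsMob c) {a : L} (ha : IsAtom a) :
    ∀ w : L, w ⊓ a = ⊥ → c (w ⊔ a) =
      -(((univ.filter (fun u : L => u ⊓ a = ⊥ ∧ u ⊔ a = w ⊔ a)).card : ℤ) * c w) := by
  intro w
  induction w using WellFoundedLT.induction with
  | _ w ih =>
    intro hw
    have hy : w ⊔ a ≠ ⊥ := fun h => ha.1 (le_bot_iff.mp (h ▸ le_sup_right))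
    have h0 := hc.2 (w ⊔ a) hy
    have hmaps : ∀ u ∈ univ.filter (fun u => u ≤ w ⊔ a),
        (u ⊔ a) ⊓ w ∈ univ.filter (fun w' => w' ≤ w) := by
      intro u _
      simp
    rw [← sum_fiberwise_of_maps_to hmaps] at h0
    have hfib : ∀ w' ∈ univ.filter (fun w' => w' ≤ w),
        ∑ u ∈ (univ.filter (fun u => u ≤ w ⊔ a)).filter (fun u => (u ⊔ a) ⊓ w = w'), c u
          = c (w' ⊔ a) +
            ((univ.filter (fun u : L => u ⊓ a = ⊥ ∧ u ⊔ a = w' ⊔ a)).card : ℤ) * c w' := by
      intro w' hw'
      have hw'le : w' ≤ w := (mem_filter.mp hw').2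
      have hw'a : w' ⊓ a = ⊥ := le_bot_iff.mp (hw ▸ inf_le_inf_right a hw'le)
      have hset : (univ.filter (fun u => u ≤ w ⊔ a)).filter (fun u => (u ⊔ a) ⊓ w = w')
          = insert (w' ⊔ a) (univ.filter (fun u : L => u ⊓ a = ⊥ ∧ u ⊔ a = w' ⊔ a)) := by
        ext u
        simp only [mem_filter, mem_univ, true_and, mem_insert]
        constructor
        · rintro ⟨hule, hρ⟩
          have hua : u ⊔ a = w' ⊔ a := by
            rw [← hρ]
            exact (mod_aux (sup_le hule le_sup_right) le_sup_right).symm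
          by_cases hau : a ≤ u
          · left
            rw [← hua]
            exact (sup_eq_left.mpr hau).symm
          · right
            refine ⟨?_, hua⟩
            rcases ha.le_iff.mp (inf_le_right : u ⊓ a ≤ a) with h | h
            · exact h
            · exact absurd (h ▸ inf_le_left) hau
        · rintro (rfl | ⟨_, hua⟩)
          · refine ⟨sup_le_sup_right hw'le a, ?_⟩
            rw [sup_assoc, sup_idem, sup_inf_assoc_of_le a hw'le, inf_comm a w, hw, sup_bot_eq]
          · refine ⟨?_, ?_⟩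
            · calc u ≤ u ⊔ a := le_sup_left
                _ = w' ⊔ a := hua
                _ ≤ w ⊔ a := sup_le_sup_right hw'le a
            · rw [hua, sup_inf_assoc_of_le a hw'le, inf_comm a w, hw, sup_bot_eq]
      rw [hset, sum_insert]
      · congr 1
        rw [sum_congr rfl (fun u hu => mob_perspective hc a w' u (mem_filter.mp hu).2.1 hw'a
          (mem_filter.mp hu).2.2), sum_const, nsmul_eq_mul]
      · simp only [mem_filter, mem_univ, true_and, not_and]
        intro h
        exfalso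
        apply ha.1
        rw [← h]
        exact (inf_eq_right.mpr le_sup_right).symm
    rw [sum_congr rfl hfib, sum_le_split] at h0
    have hrest : ∑ w' ∈ univ.filter (fun w' => w' < w), (c (w' ⊔ a) +
        ((univ.filter (fun u : L => u ⊓ a = ⊥ ∧ u ⊔ a = w' ⊔ a)).card : ℤ) * c w') = 0 := by
      apply sum_eq_zero
      intro w' hw'
      have hlt := (mem_filter.mp hw').2
      rw [ih w' hlt (le_bot_iff.mp (hw ▸ inf_le_inf_right a hlt.le))]
      ring
    rw [hrest, add_zero] at h0
    linarith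

end Lattice

section Module

variable {R : Type*} [Ring R] {M : Type*} [AddCommGroup M] [Module R M]

/-- the graph of a homomorphism `W → A` as a submodule -/
def graph (W A : Submodule R M) (φ : W →ₗ[R] A) : Submodule R M :=
  LinearMap.range (W.subtype + A.subtype ∘ₗ φ)

theorem mem_graph {W A : Submodule R M} (φ : W →ₗ[R] A) (m : M) :
    m ∈ graph W A φ ↔ ∃ w : W, (w : M) + (φ w : M) = m := by
  unfold graph
  rw [LinearMap.mem_range]
  rfl

theorem graph_inf {W A : Submodule R M} (hWA : W ⊓ A = ⊥) (φ : W →ₗ[R] A) :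
    graph W A φ ⊓ A = ⊥ := by
  rw [eq_bot_iff]
  rintro m ⟨hm, hmA⟩
  obtain ⟨w, rfl⟩ := (mem_graph φ m).mp hm
  have hw : (w : M) ∈ W ⊓ A := by
    refine ⟨w.2, ?_⟩
    have := A.sub_mem hmA (φ w).2
    simpa using this
  rw [hWA] at hw
  have hw0 : (w : M) = 0 := hw
  have hw1 : w = 0 := Subtype.ext hw0
  rw [hw1]
  simp

theorem graph_sup {W A : Submodule R M} (φ : W →ₗ[R] A) : graph W A φ ⊔ A = W ⊔ A := by
  apply le_antisymm
  · apply sup_le _ le_sup_right
    intro m hm
    obtain ⟨w, rfl⟩ := (mem_graph φ m).mp hm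
    exact Submodule.add_mem _ (Submodule.mem_sup_left w.2) (Submodule.mem_sup_right (φ w).2)
  · apply sup_le _ le_sup_right
    intro w hw
    have e : w = (w + (φ ⟨w, hw⟩ : M)) - (φ ⟨w, hw⟩ : M) := by abel
    rw [e]
    exact Submodule.sub_mem _ (Submodule.mem_sup_left ((mem_graph φ _).mpr ⟨⟨w, hw⟩, rfl⟩))
      (Submodule.mem_sup_right (φ ⟨w, hw⟩).2)

theorem graph_injective {W A : Submodule R M} (hWA : W ⊓ A = ⊥) :
    Function.Injective (graph W A) := by
  intro φ φ' h
  ext w
  have hm : (w : M) + (φ w : M) ∈ graph W A φ' := by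
    rw [← h]
    exact (mem_graph φ _).mpr ⟨w, rfl⟩
  obtain ⟨w', hw'⟩ := (mem_graph φ' _).mp hm
  have h1 : (w' : M) - (w : M) ∈ W ⊓ A := by
    refine ⟨W.sub_mem w'.2 w.2, ?_⟩
    have e : (w' : M) - (w : M) = (φ w : M) - (φ' w' : M) := by
      rw [sub_eq_sub_iff_add_eq_add, hw', add_comm]
    rw [e]
    exact A.sub_mem (φ w).2 (φ' w').2
  rw [hWA] at h1
  have h2 : (w' : M) = (w : M) := sub_eq_zero.mp h1
  have h3 : w' = w := Subtype.ext h2
  rw [h3] at hw'
  exact (add_left_cancel hw').symm

theorem graph_surjective {W A U : Submodule R M} (hUA : U ⊓ A = ⊥)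
    (hU : U ⊔ A = W ⊔ A) : ∃ φ : W →ₗ[R] A, graph W A φ = U := by
  have hf : Function.Injective (U.mkQ ∘ₗ A.subtype) := by
    rw [← LinearMap.ker_eq_bot, eq_bot_iff]
    intro a ha
    rw [LinearMap.mem_ker, LinearMap.comp_apply, Submodule.mkQ_apply,
      Submodule.Quotient.mk_eq_zero] at ha
    have : (a : M) ∈ U ⊓ A := ⟨ha, a.2⟩
    rw [hUA] at this
    exact Subtype.ext this
  have hg : ∀ w : W, (U.mkQ ∘ₗ W.subtype) w ∈ LinearMap.range (U.mkQ ∘ₗ A.subtype) := by
    intro w
    have hw : (w : M) ∈ U ⊔ A := by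
      rw [hU]
      exact Submodule.mem_sup_left w.2
    obtain ⟨u, hu, a, ha, hua⟩ := Submodule.mem_sup.mp hw
    refine ⟨⟨a, ha⟩, ?_⟩
    simp only [LinearMap.comp_apply, Submodule.subtype_apply, Submodule.mkQ_apply]
    rw [Submodule.Quotient.eq, ← hua]
    simpa using U.neg_mem hu
  let ψ : W →ₗ[R] A := ((LinearEquiv.ofInjective _ hf).symm : _ →ₗ[R] A) ∘ₗ
    (U.mkQ ∘ₗ W.subtype).codRestrict _ hg
  have hψ : ∀ w : W, (w : M) - (ψ w : M) ∈ U := by
    intro w
    have h1 : (LinearEquiv.ofInjective _ hf) (ψ w) = (U.mkQ ∘ₗ W.subtype).codRestrict _ hg w :=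
      LinearEquiv.apply_symm_apply _ _
    have h2 := congrArg Subtype.val h1
    simp only [LinearEquiv.ofInjective_apply, LinearMap.comp_apply, Submodule.subtype_apply,
      Submodule.mkQ_apply, LinearMap.codRestrict_apply] at h2
    rw [eq_comm, Submodule.Quotient.eq] at h2
    exact h2
  refine ⟨-ψ, ?_⟩
  apply le_antisymm
  · intro m hm
    obtain ⟨w, rfl⟩ := (mem_graph _ m).mp hm
    have := hψ w
    simpa [sub_eq_add_neg] using this
  · intro u hu
    have hu' : u ∈ W ⊔ A := by
      rw [← hU]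
      exact Submodule.mem_sup_left hu
    obtain ⟨w, hw, a, ha, hwa⟩ := Submodule.mem_sup.mp hu'
    have h1 : a + (ψ ⟨w, hw⟩ : M) ∈ U ⊓ A := by
      refine ⟨?_, A.add_mem ha (ψ ⟨w, hw⟩).2⟩
      have e : a + (ψ ⟨w, hw⟩ : M) = u - (w - (ψ ⟨w, hw⟩ : M)) := by
        rw [← hwa]
        abel
      rw [e]
      exact U.sub_mem hu (hψ ⟨w, hw⟩)
    rw [hUA] at h1
    have h2 : a + (ψ ⟨w, hw⟩ : M) = 0 := h1
    refine (mem_graph _ u).mpr ⟨⟨w, hw⟩, ?_⟩
    rw [← hwa]
    have h3 : a = -(ψ ⟨w, hw⟩ : M) := eq_neg_of_add_eq_zero_left h2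
    rw [h3]
    simp

/-- complements of `A` in `W ⊔ A` correspond to homomorphisms `W → A` -/
theorem card_compl {W A : Submodule R M} (hWA : W ⊓ A = ⊥) :
    Nat.card {U : Submodule R M // U ⊓ A = ⊥ ∧ U ⊔ A = W ⊔ A} = Nat.card (W →ₗ[R] A) := by
  symm
  refine Nat.card_congr (Equiv.ofBijective
    (fun φ => ⟨graph W A φ, graph_inf hWA φ, graph_sup φ⟩) ⟨?_, ?_⟩)
  · intro φ φ' h
    exact graph_injective hWA (congrArg Subtype.val h)
  · rintro ⟨U, hUA, hU⟩
    obtain ⟨φ, hφ⟩ := graph_surjective hUA hU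
    exact ⟨φ, Subtype.ext hφ⟩

end Module

end Cfsg.Agent.Lib.Helper58.SubMob
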