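import Mathlib
import Cfsg.Agent.Lib.Helper58.SubMob

set_option autoImplicit false

/-!
Finite `F[X]`-modules: characteristic polynomial of multiplication by `X`, simple modules, and the
Möbius function of the submodule lattice of a semisimple module.
-/

namespace Cfsg.Agent.Lib.Helper58.SemiMob

open Polynomial Cfsg.Agent.Lib.Helper58.SubMob

section

variable {F : Type*} [Field F]

section mulX

variable (N : Type*) [AddCommGroup N] [Module F[X] N] [Module F N] [IsScalarTower F F[X] N]

/-- multiplication by `X` as an `F`-linear endomorphism -/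
noncomputable def mulX : N →ₗ[F] N :=
  ((X : F[X]) • (LinearMap.id : N →ₗ[F[X]] N)).restrictScalars F

variable {N}

theorem mulX_apply (v : N) : mulX (F := F) N v = (X : F[X]) • v := rfl

theorem mulX_pow_apply (n : ℕ) (v : N) : (mulX (F := F) N ^ n) v = (X ^ n : F[X]) • v := by
  induction n generalizing v with
  | zero => simp
  | succ n ih =>
    rw [pow_succ, Module.End.mul_apply, ih, mulX_apply, pow_succ, mul_smul]

theorem aeval_mulX (p : F[X]) (v : N) : aeval (mulX (F := F) N) p v = p • v := by
  induction p using Polynomial.induction_on' with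
  | add p q hp hq => rw [map_add, LinearMap.add_apply, hp, hq, add_smul]
  | monomial n a =>
    rw [← C_mul_X_pow_eq_monomial, map_mul, map_pow, aeval_C, aeval_X, Module.End.mul_apply,
      mulX_pow_apply, Module.algebraMap_end_apply, mul_smul, C_eq_algebraMap, algebraMap_smul]

theorem charpoly_mulX_congr {N' : Type*} [AddCommGroup N'] [Module F[X] N'] [Module F N']
    [IsScalarTower F F[X] N'] [Module.Finite F N] [Module.Finite F N'] (e : N ≃ₗ[F[X]] N') :
    (mulX (F := F) N).charpoly = (mulX (F := F) N').charpoly := by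
  have h : (e.restrictScalars F).conj (mulX (F := F) N) = mulX (F := F) N' := by
    ext v
    rw [LinearEquiv.conj_apply_apply, mulX_apply, mulX_apply]
    simp
  rw [← h, LinearEquiv.charpoly_conj]

end mulX

section simple

variable {N : Type*} [AddCommGroup N] [Module F[X] N] [Module F N] [IsScalarTower F F[X] N]

/-- for a simple finite module, the annihilator of a nonzero element is generated by the
characteristic polynomial, which is irreducible -/
theorem ker_toSpanSingleton [Module.Finite F N] [IsSimpleModule F[X] N] {s : N} (hs : s ≠ 0) :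
    LinearMap.ker (LinearMap.toSpanSingleton F[X] N s) =
        Ideal.span {(mulX (F := F) N).charpoly} ∧
      Irreducible (mulX (F := F) N).charpoly := by
  obtain ⟨χ, hχ⟩ : ∃ χ, χ = (mulX (F := F) N).charpoly := ⟨_, rfl⟩
  rw [← hχ]
  have hmonic : χ.Monic := hχ ▸ LinearMap.charpoly_monic _
  obtain ⟨I, hI⟩ : ∃ I : Ideal F[X], I = LinearMap.ker (LinearMap.toSpanSingleton F[X] N s) :=
    ⟨_, rfl⟩
  rw [← hI]
  have hsurj : Function.Surjective (LinearMap.toSpanSingleton F[X] N s) :=
    IsSimpleModule.toSpanSingleton_surjective F[X] hs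
  have hχI : χ ∈ I := by
    rw [hI, LinearMap.mem_ker, LinearMap.toSpanSingleton_apply, ← aeval_mulX (F := F), hχ,
      LinearMap.aeval_self_charpoly, LinearMap.zero_apply]
  have hmax : I.IsMaximal := hI ▸ IsSimpleModule.ker_toSpanSingleton_isMaximal F[X] hs
  obtain ⟨h₀, hh₀⟩ : ∃ h₀, I = Ideal.span {h₀} :=
    ⟨_, (Ideal.span_singleton_generator I).symm⟩
  have hne : h₀ ≠ 0 := by
    rintro rfl
    rw [hh₀, Ideal.span_singleton_zero, Ideal.mem_bot] at hχI
    exact hmonic.ne_zero hχI
  have hprime : Prime h₀ := (Ideal.span_singleton_prime hne).mp (hh₀ ▸ hmax.isPrime)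
  have hdvd : h₀ ∣ χ := Ideal.mem_span_singleton.mp (hh₀ ▸ hχI)
  have hdeg : h₀.natDegree = χ.natDegree := by
    rw [hχ, LinearMap.charpoly_natDegree]
    have e : (F[X] ⧸ LinearMap.ker (LinearMap.toSpanSingleton F[X] N s)) ≃ₗ[F[X]] N :=
      (LinearMap.toSpanSingleton F[X] N s).quotKerEquivOfSurjective hsurj
    have h1 : Module.finrank F (F[X] ⧸ LinearMap.ker (LinearMap.toSpanSingleton F[X] N s)) =
        Module.finrank F N := LinearEquiv.finrank_eq (e.restrictScalars F)
    rw [← h1, ← hI, hh₀]
    exact finrank_quotient_span_eq_natDegree.symm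
  obtain ⟨k, hk⟩ := hdvd
  have hk0 : k ≠ 0 := by
    rintro rfl
    rw [mul_zero] at hk
    exact hmonic.ne_zero hk
  have hkdeg : k.natDegree = 0 := by
    have := congrArg natDegree hk
    rw [natDegree_mul hne hk0] at this
    omega
  have hku : IsUnit k := by
    rw [Polynomial.isUnit_iff]
    obtain ⟨a, ha⟩ := natDegree_eq_zero.mp hkdeg
    refine ⟨a, isUnit_iff_ne_zero.mpr ?_, ha⟩
    rintro rfl
    rw [map_zero] at ha
    exact hk0 ha.symm
  have hassoc : Associated h₀ χ := ⟨hku.unit, by rw [hk]; rfl⟩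
  refine ⟨?_, hassoc.irreducible hprime.irreducible⟩
  rw [hh₀]
  exact Ideal.span_singleton_eq_span_singleton.mpr hassoc

variable {N' : Type*} [AddCommGroup N'] [Module F[X] N'] [Module F N'] [IsScalarTower F F[X] N']

open Classical in
/-- homomorphisms between finite simple modules -/
theorem card_hom_simple [Finite F] [Finite N] [Finite N'] [IsSimpleModule F[X] N]
    [IsSimpleModule F[X] N'] :
    Nat.card (N →ₗ[F[X]] N') =
      if (mulX (F := F) N).charpoly = (mulX (F := F) N').charpoly then
        Nat.card F ^ (mulX (F := F) N').charpoly.natDegree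
      else 1 := by
  split_ifs with h
  · haveI := IsSimpleModule.nontrivial F[X] N
    haveI := IsSimpleModule.nontrivial F[X] N'
    obtain ⟨s, hs⟩ := exists_ne (0 : N)
    obtain ⟨s', hs'⟩ := exists_ne (0 : N')
    have hk := (ker_toSpanSingleton (F := F) hs).1
    have hk' := (ker_toSpanSingleton (F := F) hs').1
    rw [h, ← hk'] at hk
    have e : N ≃ₗ[F[X]] N' :=
      ((LinearMap.toSpanSingleton F[X] N s).quotKerEquivOfSurjective
        (IsSimpleModule.toSpanSingleton_surjective F[X] hs)).symm.trans
      ((Submodule.quotEquivOfEq _ _ hk).trans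
        ((LinearMap.toSpanSingleton F[X] N' s').quotKerEquivOfSurjective
          (IsSimpleModule.toSpanSingleton_surjective F[X] hs')))
    have hes : e s ≠ 0 := fun h0 => hs (e.map_eq_zero_iff.mp h0)
    have hbij : Function.Bijective (fun φ : N →ₗ[F[X]] N' => φ s) := by
      constructor
      · intro φ φ' hφ
        ext v
        obtain ⟨r, rfl⟩ := IsSimpleModule.toSpanSingleton_surjective F[X] hs v
        rw [LinearMap.toSpanSingleton_apply, map_smul, map_smul]
        exact congrArg _ hφ
      · intro b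
        obtain ⟨r, rfl⟩ := IsSimpleModule.toSpanSingleton_surjective F[X] hes b
        exact ⟨r • (e : N →ₗ[F[X]] N'), rfl⟩
    rw [Nat.card_congr (Equiv.ofBijective _ hbij), Module.natCard_eq_pow_finrank (K := F),
      LinearMap.charpoly_natDegree]
  · have hzero : ∀ φ : N →ₗ[F[X]] N', φ = 0 := by
      intro φ
      rcases LinearMap.bijective_or_eq_zero φ with hb | h0
      · exact absurd (charpoly_mulX_congr (F := F) (LinearEquiv.ofBijective φ hb)) h
      · exact h0
    haveI : Subsingleton (N →ₗ[F[X]] N') := ⟨fun a b => by rw [hzero a, hzero b]⟩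
    exact Nat.card_unique

end simple

section sup

theorem nonempty_supEquiv {R : Type*} [Ring R] {M : Type*} [AddCommGroup M] [Module R M]
    (W S : Submodule R M) (h : W ⊓ S = ⊥) : Nonempty ((W × S) ≃ₗ[R] ↥(W ⊔ S)) := by
  have hinj : Function.Injective (W.subtype.coprod S.subtype) := by
    rw [← LinearMap.ker_eq_bot, LinearMap.ker_coprod_of_disjoint_range]
    · simp
    · simpa [disjoint_iff] using h
  have hrange : LinearMap.range (W.subtype.coprod S.subtype) = W ⊔ S := by
    rw [LinearMap.range_coprod]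
    simp
  exact ⟨(LinearEquiv.ofInjective _ hinj).trans (LinearEquiv.ofEq _ _ hrange)⟩

variable {M : Type*} [AddCommGroup M] [Module F[X] M] [Module F M] [IsScalarTower F F[X] M]
  [Finite M]

theorem charpoly_sup (W S : Submodule F[X] M) (h : W ⊓ S = ⊥) :
    (mulX (F := F) ↥(W ⊔ S)).charpoly =
      (mulX (F := F) ↥W).charpoly * (mulX (F := F) ↥S).charpoly := by
  obtain ⟨e⟩ := nonempty_supEquiv W S h
  rw [← charpoly_mulX_congr (F := F) e]
  have : mulX (F := F) (W × S) = (mulX (F := F) ↥W).prodMap (mulX (F := F) ↥S) := by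
    apply LinearMap.ext
    intro v
    rfl
  rw [this, LinearMap.charpoly_prodMap]

theorem card_hom_sup (W S A : Submodule F[X] M) (h : W ⊓ S = ⊥) :
    Nat.card (↥(W ⊔ S) →ₗ[F[X]] A) =
      Nat.card (W →ₗ[F[X]] A) * Nat.card (S →ₗ[F[X]] A) := by
  obtain ⟨e⟩ := nonempty_supEquiv W S h
  rw [← Nat.card_prod]
  exact Nat.card_congr (((LinearEquiv.arrowCongr e (LinearEquiv.refl F[X] A)).symm.toEquiv).trans
    (LinearMap.coprodEquiv F[X]).symm.toEquiv)

end sup

section formula

open Classical in
/-- the value of the Möbius function attached to a multiset of irreducible factors -/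
noncomputable def Fm (q : ℕ) (𝔐 : Multiset F[X]) : ℤ :=
  ∏ g ∈ 𝔐.toFinset, (-1) ^ (𝔐.count g) * (q : ℤ) ^ (g.natDegree * (𝔐.count g).choose 2)

theorem Fm_zero (q : ℕ) : Fm q (0 : Multiset F[X]) = 1 := by
  unfold Fm
  simp

open Classical in
theorem Fm_cons (q : ℕ) (g : F[X]) (𝔐 : Multiset F[X]) :
    Fm q (g ::ₘ 𝔐) = -((q : ℤ) ^ (g.natDegree * 𝔐.count g) * Fm q 𝔐) := by
  unfold Fm
  have hg : g ∈ (g ::ₘ 𝔐).toFinset := by simp
  have hsub : 𝔐.toFinset ⊆ (g ::ₘ 𝔐).toFinset := by
    intro x hx
    rw [Multiset.mem_toFinset] at hx ⊢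
    exact Multiset.mem_cons_of_mem hx
  have h2 : ∏ g' ∈ 𝔐.toFinset,
        (-1 : ℤ) ^ (𝔐.count g') * (q : ℤ) ^ (g'.natDegree * (𝔐.count g').choose 2) =
      ∏ g' ∈ (g ::ₘ 𝔐).toFinset,
        (-1 : ℤ) ^ (𝔐.count g') * (q : ℤ) ^ (g'.natDegree * (𝔐.count g').choose 2) := by
    apply Finset.prod_subset hsub
    intro x _ hx
    rw [Multiset.mem_toFinset] at hx
    rw [Multiset.count_eq_zero_of_notMem hx]
    simp
  rw [h2, ← Finset.mul_prod_erase _ _ hg, ← Finset.mul_prod_erase _ _ hg]
  have h3 : ∏ x ∈ (g ::ₘ 𝔐).toFinset.erase g, (-1 : ℤ) ^ ((g ::ₘ 𝔐).count x) *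
        (q : ℤ) ^ (x.natDegree * ((g ::ₘ 𝔐).count x).choose 2) =
      ∏ x ∈ (g ::ₘ 𝔐).toFinset.erase g, (-1 : ℤ) ^ (𝔐.count x) *
        (q : ℤ) ^ (x.natDegree * (𝔐.count x).choose 2) := by
    apply Finset.prod_congr rfl
    intro x hx
    rw [Multiset.count_cons_of_ne (Finset.ne_of_mem_erase hx)]
  rw [h3, Multiset.count_cons_self]
  have h4 : (𝔐.count g + 1).choose 2 = 𝔐.count g + (𝔐.count g).choose 2 := by
    rw [Nat.choose_succ_succ, Nat.choose_one_right]
  rw [h4, Nat.mul_add, pow_add, pow_succ]
  ring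

variable {M : Type*} [AddCommGroup M] [Module F[X] M] [Module F M] [IsScalarTower F F[X] M]
  [Finite M]

open Classical in
/-- the Möbius function of the submodule lattice of a finite semisimple `F[X]`-module -/
theorem mob_formula [Fintype F] [IsSemisimpleModule F[X] M] [Fintype (Submodule F[X] M)]
    {c : Submodule F[X] M → ℤ} (hc : IsMob c) :
    ∀ W : Submodule F[X] M,
      c W = Fm (Fintype.card F)
          (UniqueFactorizationMonoid.normalizedFactors (mulX (F := F) ↥W).charpoly) ∧
      ∀ A : Submodule F[X] M, IsAtom A → Nat.card (W →ₗ[F[X]] A) =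
        Fintype.card F ^ ((mulX (F := F) ↥A).charpoly.natDegree *
          (UniqueFactorizationMonoid.normalizedFactors (mulX (F := F) ↥W).charpoly).count
            (mulX (F := F) ↥A).charpoly) := by
  intro W
  induction W using WellFoundedLT.induction with
  | _ W ih =>
    rcases eq_or_ne W ⊥ with rfl | hW
    · have h1 : (mulX (F := F) ↥(⊥ : Submodule F[X] M)).charpoly = 1 := by
        apply Polynomial.eq_one_of_monic_natDegree_zero (LinearMap.charpoly_monic _)
        rw [LinearMap.charpoly_natDegree]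
        exact Module.finrank_zero_of_subsingleton
      rw [h1, UniqueFactorizationMonoid.normalizedFactors_one]
      refine ⟨by rw [Fm_zero, hc.1], fun A _ => ?_⟩
      rw [Multiset.count_zero, Nat.mul_zero, pow_zero]
      exact Nat.card_unique
    · obtain ⟨S, hS, hSW⟩ := (eq_bot_or_exists_atom_le W).resolve_left hW
      obtain ⟨S', hS'⟩ := exists_isCompl S
      obtain ⟨W'', hW''⟩ : ∃ W'', W'' = W ⊓ S' := ⟨_, rfl⟩
      have h1 : W'' ⊓ S = ⊥ := by
        rw [eq_bot_iff, hW'', ← hS'.inf_eq_bot]
        exact le_inf (inf_le_right) (inf_le_left.trans inf_le_right)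
      have h2 : W'' ⊔ S = W := by
        have := sup_inf_assoc_of_le S' hSW
        rw [hS'.sup_eq_top, top_inf_eq] at this
        rw [hW'', sup_comm, inf_comm]
        exact this.symm
      have hlt : W'' < W := by
        refine lt_of_le_of_ne (hW'' ▸ inf_le_left) ?_
        intro h
        apply hS.1
        rw [eq_bot_iff, ← h1]
        exact le_inf (h ▸ hSW) le_rfl
      obtain ⟨ih1, ih2⟩ := ih W'' hlt
      haveI : IsSimpleModule F[X] ↥S := isSimpleModule_iff_isAtom.mpr hS
      haveI : Nontrivial ↥S := IsSimpleModule.nontrivial F[X] ↥S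
      obtain ⟨s, hs⟩ := exists_ne (0 : ↥S)
      have hirr : Irreducible (mulX (F := F) ↥S).charpoly := (ker_toSpanSingleton (F := F) hs).2
      have hχ := charpoly_sup (F := F) W'' S h1
      have hnf : UniqueFactorizationMonoid.normalizedFactors (mulX (F := F) ↥(W'' ⊔ S)).charpoly =
          (mulX (F := F) ↥S).charpoly ::ₘ
            UniqueFactorizationMonoid.normalizedFactors (mulX (F := F) ↥W'').charpoly := by
        rw [hχ, UniqueFactorizationMonoid.normalizedFactors_mul
          (LinearMap.charpoly_monic _).ne_zero (LinearMap.charpoly_monic _).ne_zero,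
          UniqueFactorizationMonoid.normalizedFactors_irreducible hirr,
          (LinearMap.charpoly_monic _).normalize_eq_self, add_comm, Multiset.singleton_add]
      rw [← h2]
      constructor
      · rw [hnf, Fm_cons, mob_atom hc hS W'' h1, ← ih1, ← Fintype.card_subtype,
          ← Nat.card_eq_fintype_card, card_compl h1, ih2 S hS]
        push_cast
        rfl
      · intro A hA
        haveI : IsSimpleModule F[X] ↥A := isSimpleModule_iff_isAtom.mpr hA
        rw [card_hom_sup (F := F) W'' S A h1, ih2 A hA, card_hom_simple (F := F), hnf,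
          Multiset.count_cons, Nat.card_eq_fintype_card]
        by_cases hSA : (mulX (F := F) ↥S).charpoly = (mulX (F := F) ↥A).charpoly
        · rw [if_pos hSA, if_pos hSA.symm, Nat.mul_add, pow_add, Nat.mul_one]
        · rw [if_neg hSA, if_neg (fun h => hSA h.symm), Nat.add_zero, Nat.mul_one]

open Classical in
theorem mob_top [Fintype F] [IsSemisimpleModule F[X] M] [Fintype (Submodule F[X] M)]
    {c : Submodule F[X] M → ℤ} (hc : IsMob c) :
    c ⊤ = Fm (Fintype.card F)
      (UniqueFactorizationMonoid.normalizedFactors (mulX (F := F) M).charpoly) := by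
  rw [(mob_formula (F := F) hc ⊤).1,
    charpoly_mulX_congr (F := F) (Submodule.topEquiv : (↥(⊤ : Submodule F[X] M)) ≃ₗ[F[X]] M)]

end formula

end

end Cfsg.Agent.Lib.Helper58.SemiMob
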