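import Mathlib
import Cfsg.Agent.Lib.Helper58.FlagChar
import Cfsg.Agent.Lib.Helper58.HessDet
import Cfsg.Agent.Lib.Helper58.ChainMob
import Cfsg.Agent.Lib.Helper58.SemiMob

set_option autoImplicit false

/-!
Values of the Steinberg character of `GL_n(q)` at elements of order prime to the
characteristic, via fixed flags and the Möbius function of the lattice of invariant subspaces.
-/

namespace Cfsg.Agent.Lib.Helper58.StValue

open Finset Polynomial
open Cfsg.Agent.Lib.Helper58.FlagChar Cfsg.Agent.Lib.Helper58.HessDet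
open Cfsg.Agent.Lib.Helper58.ChainMob Cfsg.Agent.Lib.Helper58.SemiMob
open Cfsg.Agent.Lib.Helper58.SubMob

section psum

variable {n : ℕ}

theorem psum_of_le (κ : Equiv.Perm (Fin n)) (hκ : ∀ i : Fin n, (κ i).val ≤ i.val + 1)
    (k : Fin n) (hk : (κ k).val ≤ k.val) :
    psum (fun i : Fin n => 1 + i.val - (κ i).val) k = k.val + 1 := by
  classical
  unfold psum
  obtain ⟨S, hS⟩ : ∃ S : Finset (Fin n), S = univ.filter (fun j : Fin n => j ≤ k) := ⟨_, rfl⟩
  rw [← hS]
  have hmem : ∀ j, j ∈ S ↔ j ≤ k := by
    intro j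
    rw [hS]
    simp
  have hsub : S.image κ ⊆ S := by
    intro j hj
    obtain ⟨i, hi, rfl⟩ := mem_image.mp hj
    rw [hmem] at hi ⊢
    rcases eq_or_lt_of_le hi with rfl | hlt
    · exact hk
    · have h1 := hκ i
      have h2 : i.val < k.val := hlt
      show (κ i).val ≤ k.val
      omega
  have himg : S.image κ = S := Finset.eq_of_subset_of_card_le hsub
    (by rw [card_image_of_injective _ κ.injective])
  have h1 : ∑ j ∈ S, (κ j).val = ∑ j ∈ S, j.val := by
    conv_rhs => rw [← himg]
    rw [Finset.sum_image (fun a _ b _ h => κ.injective h)]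
  have h2 : ∑ j ∈ S, (1 + j.val - (κ j).val) + ∑ j ∈ S, (κ j).val = ∑ j ∈ S, (1 + j.val) := by
    rw [← Finset.sum_add_distrib]
    apply Finset.sum_congr rfl
    intro j _
    have := hκ j
    omega
  have h3 : S.card = k.val + 1 := by
    have : S = Finset.Iic k := by
      ext j
      rw [hmem]
      simp
    rw [this, Fin.card_Iic]
  rw [Finset.sum_add_distrib, Finset.sum_const, smul_eq_mul, mul_one, h3, h1] at h2
  show ∑ j ∈ S, (1 + j.val - (κ j).val) = k.val + 1
  omega

/-- prefix sums indexed by natural numbers -/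
def qsum (μ : Fin n → ℕ) (d : ℕ) : ℕ := ∑ j ∈ univ.filter (fun j : Fin n => j.val < d), μ j

theorem psum_eq_qsum (μ : Fin n → ℕ) (k : Fin n) : psum μ k = qsum μ (k.val + 1) := by
  unfold psum qsum
  congr 1
  ext j
  simp only [mem_filter, mem_univ, true_and]
  rw [Fin.le_def]
  omega

theorem qsum_zero (μ : Fin n → ℕ) : qsum μ 0 = 0 := by
  unfold qsum
  simp

theorem qsum_succ (μ : Fin n → ℕ) (d : ℕ) (hd : d < n) :
    qsum μ (d + 1) = qsum μ d + μ ⟨d, hd⟩ := by
  unfold qsum
  have h : univ.filter (fun j : Fin n => j.val < d + 1) =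
      insert ⟨d, hd⟩ (univ.filter (fun j : Fin n => j.val < d)) := by
    ext j
    simp only [mem_filter, mem_univ, true_and, mem_insert, Fin.ext_iff]
    omega
  rw [h, Finset.sum_insert (by simp), add_comm]

theorem qsum_mem (κ : Equiv.Perm (Fin n)) (hκ : ∀ i : Fin n, (κ i).val ≤ i.val + 1) :
    ∀ d, d ≤ n → qsum (fun i : Fin n => 1 + i.val - (κ i).val) d = 0 ∨
      ∃ i : Fin n, (κ i).val ≤ i.val ∧
        qsum (fun i : Fin n => 1 + i.val - (κ i).val) d = i.val + 1 := by
  intro d
  induction d with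
  | zero =>
    intro _
    left
    exact qsum_zero _
  | succ d ih =>
    intro hd
    have hd' : d < n := by omega
    by_cases h : (κ ⟨d, hd'⟩).val ≤ d
    · right
      refine ⟨⟨d, hd'⟩, h, ?_⟩
      rw [show qsum (fun i : Fin n => 1 + i.val - (κ i).val) (d + 1) =
        psum (fun i : Fin n => 1 + i.val - (κ i).val) ⟨d, hd'⟩ from (psum_eq_qsum _ ⟨d, hd'⟩).symm]
      exact psum_of_le κ hκ ⟨d, hd'⟩ h
    · have h0 : 1 + d - (κ ⟨d, hd'⟩).val = 0 := by
        have := hκ ⟨d, hd'⟩
        omega
      rw [qsum_succ _ d hd']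
      rcases ih (by omega) with h1 | ⟨i, hi, h1⟩
      · left
        rw [h1]
        show 0 + (1 + d - (κ ⟨d, hd'⟩).val) = 0
        omega
      · right
        refine ⟨i, hi, ?_⟩
        rw [h1]
        show i.val + 1 + (1 + d - (κ ⟨d, hd'⟩).val) = i.val + 1
        omega

theorem dset_constr (κ : Equiv.Perm (Fin n)) (hκ : ∀ i : Fin n, (κ i).val ≤ i.val + 1) :
    dset (fun i : Fin n => 1 + i.val - (κ i).val) =
      ((univ.filter (fun i : Fin n => (κ i).val ≤ i.val)).image
        (fun i : Fin n => i.val + 1)).filter (fun d => 1 ≤ d ∧ d < n) := by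
  ext d
  unfold dset
  simp only [mem_filter, mem_image, mem_univ, true_and]
  constructor
  · rintro ⟨⟨k, rfl⟩, h1, h2⟩
    refine ⟨?_, h1, h2⟩
    rw [psum_eq_qsum] at h1 ⊢
    rcases qsum_mem κ hκ (k.val + 1) (by have := k.2; omega) with h3 | ⟨i, hi, h3⟩
    · omega
    · exact ⟨i, hi, h3.symm⟩
  · rintro ⟨⟨i, hi, rfl⟩, h1, h2⟩
    exact ⟨⟨i, psum_of_le κ hκ i hi⟩, h1, h2⟩

end psum

section flags

variable {F : Type*} [Field F]

theorem filter_insert_image (m : ℕ) (t : Finset ℕ) (ht : t ⊆ range m) :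
    ((insert m t).image (fun i => i + 1)).filter (fun d => 1 ≤ d ∧ d < m + 1) =
      t.image (fun i => i + 1) := by
  ext d
  simp only [mem_filter, mem_image, mem_insert]
  constructor
  · rintro ⟨⟨i, hi | hi, rfl⟩, h1, h2⟩
    · omega
    · exact ⟨i, hi, rfl⟩
  · rintro ⟨i, hi, rfl⟩
    have := mem_range.mp (ht hi)
    exact ⟨⟨i, Or.inr hi, rfl⟩, by omega, by omega⟩

/-- the Steinberg character as an alternating sum of numbers of fixed flags -/
theorem st_flag (m : ℕ) (x : GL (Fin (m + 1)) F) :
    Cfsg.unipotentCharacterGL (m + 1) F (fun _ => 1) x =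
      ∑ t ∈ (range m).powerset, (-1 : ℂ) ^ (m - t.card) *
        (Nat.card (flagSet x (t.image (fun i => i + 1))) : ℂ) := by
  classical
  obtain ⟨Φ, hΦ⟩ : ∃ Φ : Finset ℕ → ℤ, Φ = fun S =>
    (Nat.card (flagSet x (S.filter (fun d => 1 ≤ d ∧ d < m + 1))) : ℤ) := ⟨_, rfl⟩
  have h1 := congrArg (Int.cast : ℤ → ℂ) (hess_sum m Φ)
  rw [Int.cast_sum, Int.cast_sum] at h1
  have h2 : ∀ t ∈ (range m).powerset,
      (((-1) ^ (m - t.card) * Φ ((insert m t).image (fun i => i + 1)) : ℤ) : ℂ) =
        (-1 : ℂ) ^ (m - t.card) * (Nat.card (flagSet x (t.image (fun i => i + 1))) : ℂ) := by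
    intro t ht
    rw [hΦ]
    show (((-1) ^ (m - t.card) * (Nat.card (flagSet x
      (((insert m t).image (fun i => i + 1)).filter (fun d => 1 ≤ d ∧ d < m + 1))) : ℤ) : ℤ) : ℂ)
      = _
    rw [filter_insert_image m t (mem_powerset.mp ht)]
    push_cast
    rfl
  rw [Finset.sum_congr rfl h2] at h1
  rw [← h1]
  unfold Cfsg.unipotentCharacterGL
  apply Finset.sum_congr rfl
  intro κ _
  by_cases h : ∀ i : Fin (m + 1), (κ i).val ≤ i.val + 1
  · have h' : ∀ i : Fin (m + 1), (κ i).val ≤ (fun _ => 1) i + i.val := by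
      intro i
      have := h i
      show (κ i).val ≤ 1 + i.val
      omega
    rw [if_pos h', if_pos h, fpc_parabolic]
    have h3 : dset (fun i : Fin (m + 1) => (fun _ => 1) i + i.val - (κ i).val) =
        ((univ.filter (fun i : Fin (m + 1) => (κ i).val ≤ i.val)).image
          (fun i : Fin (m + 1) => i.val + 1)).filter (fun d => 1 ≤ d ∧ d < m + 1) :=
      dset_constr κ h
    rw [h3, hΦ]
    push_cast
    rfl
  · have h' : ¬ ∀ i : Fin (m + 1), (κ i).val ≤ (fun _ => 1) i + i.val := by
      intro h''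
      apply h
      intro i
      have h4 : (κ i).val ≤ 1 + i.val := h'' i
      omega
    rw [if_neg h', if_neg h, Int.cast_zero]

end flags

section chains

variable {F : Type*} [Field F] {n : ℕ}

theorem finrank_injOn_chain (C : Finset (Submodule F (Fin n → F)))
    (hC : IsChain (· ≤ ·) (C : Set (Submodule F (Fin n → F)))) :
    Set.InjOn (fun U : Submodule F (Fin n → F) => Module.finrank F U)
      (C : Set (Submodule F (Fin n → F))) := by
  intro U hU U' hU' h
  by_contra hne
  rcases hC hU hU' hne with h1 | h1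
  · exact hne (Submodule.eq_of_le_of_finrank_eq h1 h)
  · exact hne (Submodule.eq_of_le_of_finrank_eq h1 h.symm).symm

/-- the alternating sum of the numbers of fixed flags is the alternating number of chains of
proper non-zero invariant subspaces -/
theorem flag_chain (m : ℕ) (x : GL (Fin (m + 1)) F) [Fintype (Submodule F (Fin (m + 1) → F))] :
    ∑ t ∈ (range m).powerset, (-1 : ℤ) ^ t.card *
        (Nat.card (flagSet x (t.image (fun i => i + 1))) : ℤ) =
      chainSum (fun U : Submodule F (Fin (m + 1) → F) => act x U ≤ U) ⊤ := by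
  classical
  unfold chainSum
  have hdim : ∀ U : Submodule F (Fin (m + 1) → F),
      (⊥ < U ∧ U < ⊤) ↔ (1 ≤ Module.finrank F U ∧ Module.finrank F U < m + 1) := by
    intro U
    constructor
    · rintro ⟨h1, h2⟩
      constructor
      · by_contra h3
        have h4 : Module.finrank F U = 0 := by omega
        rw [Submodule.finrank_eq_zero] at h4
        exact (ne_of_gt h1) h4
      · have h3 := Submodule.finrank_lt (ne_of_lt h2)
        rw [Module.finrank_fin_fun] at h3
        exact h3
    · rintro ⟨h1, h2⟩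
      constructor
      · rw [bot_lt_iff_ne_bot]
        rintro rfl
        rw [finrank_bot] at h1
        omega
      · rw [lt_top_iff_ne_top]
        rintro rfl
        rw [finrank_top, Module.finrank_fin_fun] at h2
        omega
  have hmaps : ∀ C ∈ chains (fun U : Submodule F (Fin (m + 1) → F) => act x U ≤ U) ⊤,
      C.image (fun U : Submodule F (Fin (m + 1) → F) => Module.finrank F U) ∈
        ((range m).image (fun i => i + 1)).powerset := by
    intro C hC
    rw [mem_chains] at hC
    rw [mem_powerset]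
    intro d hd
    obtain ⟨U, hU, rfl⟩ := mem_image.mp hd
    obtain ⟨_, h1, h2⟩ := hC.1 U hU
    obtain ⟨h3, h4⟩ := (hdim U).mp ⟨h1, h2⟩
    rw [mem_image]
    exact ⟨Module.finrank F U - 1, mem_range.mpr (by omega), by omega⟩
  rw [← Finset.sum_fiberwise_of_maps_to hmaps, Finset.powerset_image,
    Finset.sum_image (fun a _ b _ h => Finset.image_injective (add_left_injective 1) h)]
  apply Finset.sum_congr rfl
  intro t ht
  have ht' : t ⊆ range m := mem_powerset.mp ht
  have hfib : ((filter (fun C : Finset (Submodule F (Fin (m + 1) → F)) =>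
      C.image (fun U : Submodule F (Fin (m + 1) → F) => Module.finrank F U) =
        t.image (fun i => i + 1))
      (chains (fun U : Submodule F (Fin (m + 1) → F) => act x U ≤ U) ⊤) :
        Finset (Finset (Submodule F (Fin (m + 1) → F)))) :
        Set (Finset (Submodule F (Fin (m + 1) → F)))) =
      flagSet x (t.image (fun i => i + 1)) := by
    ext C
    rw [mem_coe, mem_filter, mem_chains]
    constructor
    · rintro ⟨⟨h1, h2⟩, h3⟩
      exact ⟨h2, fun U hU => (h1 U hU).1, h3⟩
    · rintro ⟨h1, h2, h3⟩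
      refine ⟨⟨fun U hU => ⟨h2 U hU, ?_⟩, h1⟩, h3⟩
      rw [hdim U]
      have h4 : Module.finrank F U ∈ t.image (fun i => i + 1) := by
        rw [← h3]
        exact mem_image_of_mem (fun U : Submodule F (Fin (m + 1) → F) => Module.finrank F U) hU
      obtain ⟨i, hi, h5⟩ := mem_image.mp h4
      have := mem_range.mp (ht' hi)
      omega
  rw [← hfib, Nat.card_coe_set_eq, Set.ncard_coe_finset]
  have hcard : ∀ C ∈ filter (fun C : Finset (Submodule F (Fin (m + 1) → F)) =>
      C.image (fun U : Submodule F (Fin (m + 1) → F) => Module.finrank F U) =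
        t.image (fun i => i + 1))
      (chains (fun U : Submodule F (Fin (m + 1) → F) => act x U ≤ U) ⊤),
      (-1 : ℤ) ^ C.card = (-1) ^ t.card := by
    intro C hC
    rw [mem_filter, mem_chains] at hC
    obtain ⟨⟨_, h2⟩, h3⟩ := hC
    have h4 := Finset.card_image_of_injOn (finrank_injOn_chain C h2)
    rw [h3, Finset.card_image_of_injective _ (add_left_injective 1)] at h4
    rw [h4]
  rw [Finset.sum_congr rfl hcard, Finset.sum_const, nsmul_eq_mul, mul_comm]

end chains

section bridge

variable {F : Type*} [Field F] {n : ℕ}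

/-- the endomorphism attached to `x` -/
noncomputable abbrev phiOf (x : GL (Fin n) F) : Module.End F (Fin n → F) :=
  Matrix.mulVecLin (x : Matrix (Fin n) (Fin n) F)

/-- the invariant subspace underlying an `F[X]`-submodule of the module attached to `x` -/
noncomputable def toV (x : GL (Fin n) F) (W : Submodule F[X] (Module.AEval' (phiOf x))) :
    Submodule F (Fin n → F) :=
  (((Module.AEval.mapSubmodule F (Fin n → F) (phiOf x)).symm W :
    (Algebra.lsmul F F (Fin n → F) (phiOf x)).invtSubmodule) : Submodule F (Fin n → F))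

theorem mem_toV (x : GL (Fin n) F) (W : Submodule F[X] (Module.AEval' (phiOf x)))
    (v : Fin n → F) : v ∈ toV x W ↔ Module.AEval'.of (phiOf x) v ∈ W := Iff.rfl

theorem toV_le (x : GL (Fin n) F) {W W' : Submodule F[X] (Module.AEval' (phiOf x))} :
    toV x W ≤ toV x W' ↔ W ≤ W' := by
  unfold toV
  rw [Subtype.coe_le_coe, OrderIso.le_iff_le]

theorem toV_injective (x : GL (Fin n) F) : Function.Injective (toV x) := by
  intro W W' h
  exact le_antisymm ((toV_le x).mp h.le) ((toV_le x).mp h.ge)

theorem toV_bot (x : GL (Fin n) F) : toV x ⊥ = ⊥ := by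
  ext v
  rw [mem_toV, Submodule.mem_bot, Submodule.mem_bot]
  exact LinearEquiv.map_eq_zero_iff _

theorem toV_top (x : GL (Fin n) F) : toV x ⊤ = ⊤ := by
  ext v
  rw [mem_toV]
  exact ⟨fun _ => Submodule.mem_top, fun _ => Submodule.mem_top⟩

theorem toV_stable (x : GL (Fin n) F) (W : Submodule F[X] (Module.AEval' (phiOf x))) :
    act x (toV x W) ≤ toV x W := by
  rintro _ ⟨v, hv, rfl⟩
  rw [mem_toV]
  have h1 := W.smul_mem (X : F[X]) ((mem_toV x W v).mp hv)
  rw [Module.AEval'.X_smul_of] at h1
  exact h1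

theorem toV_surj (x : GL (Fin n) F) (U : Submodule F (Fin n → F)) (hU : act x U ≤ U) :
    ∃ W, toV x W = U := by
  have hU' : U ∈ (Algebra.lsmul F F (Fin n → F) (phiOf x)).invtSubmodule := by
    intro v hv
    exact hU ⟨v, hv, rfl⟩
  refine ⟨Module.AEval.mapSubmodule F (Fin n → F) (phiOf x) ⟨U, hU'⟩, ?_⟩
  unfold toV
  rw [OrderIso.symm_apply_apply]

/-- the chain Möbius function of the invariant subspaces, transported to the `F[X]`-module -/
theorem isMob_chain (x : GL (Fin n) F) [Fintype (Submodule F (Fin n → F))]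
    [Fintype (Submodule F[X] (Module.AEval' (phiOf x)))] :
    IsMob (fun W : Submodule F[X] (Module.AEval' (phiOf x)) =>
      chainMob (fun U : Submodule F (Fin n → F) => act x U ≤ U) (toV x W)) := by
  classical
  refine ⟨?_, ?_⟩
  · show chainMob _ (toV x ⊥) = 1
    rw [toV_bot, chainMob_bot]
  · intro W hW
    have hW0 : toV x W ≠ ⊥ := by
      rw [← toV_bot x]
      intro h
      exact hW (toV_injective x h)
    have hbot : act x (⊥ : Submodule F (Fin n → F)) ≤ ⊥ := by
      unfold act
      rw [Submodule.map_bot]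
    rw [← chainMob_sum (fun U : Submodule F (Fin n → F) => act x U ≤ U) hbot (toV x W)
      (toV_stable x W) hW0]
    have himg : univ.filter (fun U : Submodule F (Fin n → F) => act x U ≤ U ∧ U ≤ toV x W) =
        (univ.filter (fun W' : Submodule F[X] (Module.AEval' (phiOf x)) => W' ≤ W)).image
          (toV x) := by
      ext U
      simp only [mem_image, mem_filter, mem_univ, true_and]
      constructor
      · rintro ⟨hU, hle⟩
        obtain ⟨W', rfl⟩ := toV_surj x U hU
        exact ⟨W', (toV_le x).mp hle, rfl⟩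
      · rintro ⟨W', hW', rfl⟩
        exact ⟨toV_stable x W', (toV_le x).mpr hW'⟩
    rw [himg, Finset.sum_image (fun a _ b _ h => toV_injective x h)]

theorem mulVecLin_pow (x : GL (Fin n) F) (k : ℕ) :
    (phiOf x) ^ k = Matrix.mulVecLin ((x ^ k : GL (Fin n) F) : Matrix (Fin n) (Fin n) F) := by
  induction k with
  | zero =>
    rw [pow_zero, pow_zero, Units.val_one, Matrix.mulVecLin_one]
    rfl
  | succ k ih =>
    rw [pow_succ, pow_succ, ih, Units.val_mul, Matrix.mulVecLin_mul]
    rfl

/-- elements of order prime to the characteristic act semisimply -/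
theorem semisimple_of_coprime [Finite F] (p : ℕ) [Fact p.Prime] [CharP F p]
    (x : GL (Fin n) F) (hx : (orderOf x).Coprime p) :
    IsSemisimpleModule F[X] (Module.AEval' (phiOf x)) := by
  have h1 : aeval (phiOf x) (X ^ orderOf x - C (1 : F) : F[X]) = 0 := by
    rw [map_sub, map_pow, aeval_X, aeval_C, map_one, mulVecLin_pow, pow_orderOf_eq_one,
      Units.val_one, Matrix.mulVecLin_one]
    exact sub_self _
  have hne : ((orderOf x : ℕ) : F) ≠ 0 := by
    rw [Ne, CharP.cast_eq_zero_iff F p]
    intro hdvd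
    have hp : p.Prime := Fact.out
    have := Nat.Coprime.eq_one_of_dvd hx.symm hdvd
    exact hp.one_lt.ne' this
  have h2 : Squarefree (X ^ orderOf x - C (1 : F) : F[X]) :=
    (Polynomial.separable_X_pow_sub_C (1 : F) hne one_ne_zero).squarefree
  exact Module.End.isSemisimple_of_squarefree_aeval_eq_zero h2 h1

theorem charpoly_bridge (x : GL (Fin n) F) :
    (mulX (F := F) (Module.AEval' (phiOf x))).charpoly =
      (x : Matrix (Fin n) (Fin n) F).charpoly := by
  have h : (Module.AEval'.of (phiOf x)).conj (phiOf x) =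
      mulX (F := F) (Module.AEval' (phiOf x)) := by
    apply LinearMap.ext
    intro v
    rw [LinearEquiv.conj_apply_apply, mulX_apply, ← Module.AEval'.X_smul_of,
      LinearEquiv.apply_symm_apply]
  rw [← h, LinearEquiv.charpoly_conj, Matrix.charpoly_mulVecLin]

end bridge

section final

variable {F : Type*} [Field F]

theorem neg_one_pow_sub {m k : ℕ} (hk : k ≤ m) : (-1 : ℂ) ^ (m - k) = (-1) ^ m * (-1) ^ k := by
  have h := pow_add (-1 : ℂ) (m - k) k
  rw [Nat.sub_add_cancel hk] at h
  rw [h, mul_assoc, ← mul_pow]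
  norm_num

/-- the value of the Steinberg character at an element of order prime to the characteristic,
in terms of the Möbius function of a semisimple module -/
theorem st_value [Fintype F] [DecidableEq F] (p : ℕ) [Fact p.Prime] [CharP F p] (m : ℕ)
    (x : GL (Fin (m + 1)) F) (hx : (orderOf x).Coprime p) :
    Cfsg.unipotentCharacterGL (m + 1) F (fun _ => 1) x =
      (((-1) ^ (m + 1) * Fm (Fintype.card F) (UniqueFactorizationMonoid.normalizedFactors
        (x : Matrix (Fin (m + 1)) (Fin (m + 1)) F).charpoly) : ℤ) : ℂ) := by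
  have hinst : ‹DecidableEq F› = (fun a b => Classical.propDecidable (a = b)) :=
    Subsingleton.elim _ _
  subst hinst
  classical
  haveI : Fintype (Submodule F (Fin (m + 1) → F)) := Fintype.ofFinite _
  haveI : Finite (Module.AEval' (phiOf x)) :=
    Finite.of_equiv _ (Module.AEval'.of (phiOf x)).toEquiv
  haveI : Fintype (Submodule F[X] (Module.AEval' (phiOf x))) := Fintype.ofFinite _
  haveI := semisimple_of_coprime p x hx
  have h1 := mob_top (F := F) (isMob_chain x)
  rw [charpoly_bridge] at h1
  have h1' : chainMob (fun U : Submodule F (Fin (m + 1) → F) => act x U ≤ U) ⊤ =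
      Fm (Fintype.card F) (UniqueFactorizationMonoid.normalizedFactors
        (x : Matrix (Fin (m + 1)) (Fin (m + 1)) F).charpoly) := by
    rw [← h1, toV_top]
  have h2 := flag_chain m x
  have h3 : chainMob (fun U : Submodule F (Fin (m + 1) → F) => act x U ≤ U) ⊤ =
      - chainSum (fun U : Submodule F (Fin (m + 1) → F) => act x U ≤ U) ⊤ := by
    unfold chainMob
    rw [if_neg top_ne_bot]
  rw [st_flag]
  have h4 : ∀ t ∈ (range m).powerset, (-1 : ℂ) ^ (m - t.card) *
        (Nat.card (flagSet x (t.image (fun i => i + 1))) : ℂ) =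
      (-1 : ℂ) ^ m * (((-1 : ℤ) ^ t.card *
        (Nat.card (flagSet x (t.image (fun i => i + 1))) : ℤ) : ℤ) : ℂ) := by
    intro t ht
    have hle : t.card ≤ m := by
      have := Finset.card_le_card (mem_powerset.mp ht)
      rw [card_range] at this
      exact this
    rw [neg_one_pow_sub hle]
    push_cast
    ring
  rw [Finset.sum_congr rfl h4, ← Finset.mul_sum, ← Int.cast_sum, h2, ← h1', h3]
  push_cast
  ring

theorem Fm_eq (q : ℕ) (𝔐 : Multiset F[X]) [DecidableEq F[X]] :
    Fm q 𝔐 = ∏ g ∈ 𝔐.toFinset,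
      (-1) ^ (𝔐.count g) * (q : ℤ) ^ (g.natDegree * (𝔐.count g).choose 2) := by
  unfold Fm
  convert rfl

/-- rewriting the Möbius value in the shape of the character formula -/
theorem Fm_final (q : ℕ) (𝔐 : Multiset F[X]) [DecidableEq F[X]]
    (hdeg : ∀ g ∈ 𝔐, 1 ≤ g.natDegree) (N : ℕ)
    (hN : N = ∑ g ∈ 𝔐.toFinset, g.natDegree * 𝔐.count g) :
    (((-1) ^ N * Fm q 𝔐 : ℤ) : ℂ) =
      ∏ f ∈ 𝔐.toFinset, (-1 : ℂ) ^ ((f.natDegree - 1) * 𝔐.count f) *
        (q : ℂ) ^ (f.natDegree * 𝔐.count f * (𝔐.count f - 1) / 2) := by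
  rw [Fm_eq]
  rw [hN, ← Finset.prod_pow_eq_pow_sum, ← Finset.prod_mul_distrib]
  push_cast
  apply Finset.prod_congr rfl
  intro g hg
  have hd := hdeg g (Multiset.mem_toFinset.mp hg)
  obtain ⟨k, hk⟩ : ∃ k, k = 𝔐.count g := ⟨_, rfl⟩
  obtain ⟨d, hd'⟩ : ∃ d, d = g.natDegree := ⟨_, rfl⟩
  rw [← hk, ← hd']
  rw [← hd'] at hd
  have e1 : d * k.choose 2 = d * k * (k - 1) / 2 := by
    rw [Nat.choose_two_right, mul_assoc, Nat.mul_div_assoc d (Nat.even_mul_pred_self k).two_dvd]
  have e2 : (-1 : ℂ) ^ (d * k) * (-1) ^ k = (-1) ^ ((d - 1) * k) := by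
    obtain ⟨d', rfl⟩ : ∃ d', d = d' + 1 := ⟨d - 1, by omega⟩
    rw [Nat.add_sub_cancel, ← pow_add, show (d' + 1) * k + k = d' * k + 2 * k by ring, pow_add,
      pow_mul (-1 : ℂ) 2 k]
    norm_num
  rw [e1, ← e2]
  ring

theorem natDegree_eq_sum [DecidableEq F] (f : F[X]) (hf : f.Monic) [DecidableEq F[X]] :
    f.natDegree = ∑ g ∈ (UniqueFactorizationMonoid.normalizedFactors f).toFinset,
      g.natDegree * (UniqueFactorizationMonoid.normalizedFactors f).count g := by
  have hmon : ∀ g ∈ UniqueFactorizationMonoid.normalizedFactors f, g.Monic := by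
    intro g hg
    have h0 : g ≠ 0 := (UniqueFactorizationMonoid.irreducible_of_normalized_factor g hg).ne_zero
    have h1 := Polynomial.monic_normalize h0
    rw [UniqueFactorizationMonoid.normalize_normalized_factor g hg] at h1
    exact h1
  have hmp : (UniqueFactorizationMonoid.normalizedFactors f).prod.Monic := by
    have h := Polynomial.monic_multiset_prod_of_monic
      (UniqueFactorizationMonoid.normalizedFactors f) id hmon
    rw [Multiset.map_id] at h
    exact h
  have hprod : (UniqueFactorizationMonoid.normalizedFactors f).prod = f :=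
    Polynomial.eq_of_monic_of_associated hmp hf
      (UniqueFactorizationMonoid.prod_normalizedFactors hf.ne_zero)
  conv_lhs => rw [← hprod]
  rw [Polynomial.natDegree_multiset_prod_of_monic _ hmon, Finset.sum_multiset_map_count]
  apply Finset.sum_congr rfl
  intro g _
  rw [smul_eq_mul, mul_comm]

end final

section zero

variable {F : Type*} [Field F]

/-- the degenerate case of degree `0` -/
theorem st_zero (x : GL (Fin 0) F) : Cfsg.unipotentCharacterGL 0 F (fun _ => 1) x = 1 := by
  classical
  unfold Cfsg.unipotentCharacterGL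
  rw [Fintype.sum_unique, if_pos (fun i => i.elim0), fpc_parabolic]
  have h1 : (default : Equiv.Perm (Fin 0)) = 1 := Subsingleton.elim _ _
  have h2 : flagSet x (dset (fun i : Fin 0 => (fun _ => 1) i + i.val - ((default :
      Equiv.Perm (Fin 0)) i).val)) = {∅} := by
    have h3 : dset (fun i : Fin 0 => (fun _ => 1) i + i.val - ((default :
        Equiv.Perm (Fin 0)) i).val) = ∅ := by
      unfold dset
      apply Finset.filter_eq_empty_iff.mpr
      intro d _
      omega
    rw [h3]
    ext C
    unfold flagSet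
    rw [Set.mem_ofPred_eq, Set.mem_singleton_iff]
    constructor
    · rintro ⟨_, _, h4⟩
      exact Finset.image_eq_empty.mp h4
    · rintro rfl
      refine ⟨?_, ?_, Finset.image_empty _⟩
      · rw [Finset.coe_empty]
        exact Set.Subsingleton.isChain Set.subsingleton_empty
      · intro U hU
        exact absurd hU (Finset.notMem_empty U)
  rw [h2, h1, Equiv.Perm.sign_one, Nat.card_eq_fintype_card, Fintype.card_unique]
  simp

end zero

end Cfsg.Agent.Lib.Helper58.StValue
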